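import Mathlib
import Cfsg.Prelude.Def_GeometricClasses

/-!
# Projectively abelian groups normalised by an irreducible element of large prime order

In odd or even prime dimension `n`, an element `a` of prime order `l > 2 n` modulo scalars acting
irreducibly centralises every commutative subalgebra it normalises; hence it normalises no
non-scalar projectively abelian subgroup of `SL n` on which it fixes only scalars.
-/

set_option autoImplicit false
set_option linter.unusedSectionVars false
set_option linter.style.haveILetI false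

namespace Cfsg.Agent.MaxSub.SingerGroup

open Matrix Cfsg.Geo
open scoped MatrixGroups Matrix

variable {F : Type*} [Field F] [Fintype F] {n : ℕ}

/-- Conjugation by an element of `GL`, as an algebra automorphism of the matrix algebra. -/
def conjAlg (g : GL (Fin n) F) : Matrix (Fin n) (Fin n) F ≃ₐ[F] Matrix (Fin n) (Fin n) F where
  toFun m := (g : Matrix (Fin n) (Fin n) F) * m * ((g⁻¹ : GL (Fin n) F) : Matrix (Fin n) (Fin n) F)
  invFun m := ((g⁻¹ : GL (Fin n) F) : Matrix (Fin n) (Fin n) F) * m * (g : Matrix (Fin n) (Fin n) F)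
  left_inv m := by simp [mul_assoc]
  right_inv m := by simp [mul_assoc]
  map_mul' x y := by simp [mul_assoc]
  map_add' x y := by simp [mul_add, add_mul]
  commutes' r := by rw [← Algebra.commutes, mul_assoc, Units.mul_inv, mul_one]

theorem conjAlg_pow_apply (g : GL (Fin n) F) (i : ℕ) (m : Matrix (Fin n) (Fin n) F) :
    (conjAlg g)^[i] m = ((g ^ i : GL (Fin n) F) : Matrix (Fin n) (Fin n) F) * m *
      (((g ^ i)⁻¹ : GL (Fin n) F) : Matrix (Fin n) (Fin n) F) := by
  induction i generalizing m with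
  | zero => simp
  | succ i ih =>
    rw [Function.iterate_succ_apply', ih]
    show (g : Matrix (Fin n) (Fin n) F) * _ * _ = _
    simp [pow_succ', _root_.mul_inv_rev, mul_assoc]

theorem conjAlg_iterate_prime {a : GL (Fin n) F} {l : ℕ} (hal : a ^ l ∈ scalars (Fin n) F)
    (m : Matrix (Fin n) (Fin n) F) : (conjAlg a)^[l] m = m := by
  obtain ⟨c, hc⟩ := (mem_scalars_iff _).1 hal
  have h := Units.mul_inv (a ^ l)
  rw [hc, Matrix.smul_mul, Matrix.one_mul] at h
  rw [conjAlg_pow_apply, hc, Matrix.smul_mul, Matrix.one_mul, Matrix.smul_mul, ← Matrix.mul_smul, h,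
    Matrix.mul_one]

/-- `a` centralises every commutative subalgebra it normalises. -/
theorem centralises_comm_subalgebra [NeZero n] {a : GL (Fin n) F} {l : ℕ} (hl : l.Prime)
    (hln : n < l) (hal : a ^ l ∈ scalars (Fin n) F)
    (hirr : ∀ W : Submodule F (Fin n → F),
      W.map (Matrix.toLin' (a : Matrix (Fin n) (Fin n) F)) ≤ W → W = ⊥ ∨ W = ⊤)
    (E : Subalgebra F (Matrix (Fin n) (Fin n) F)) (hcomm : ∀ x ∈ E, ∀ y ∈ E, x * y = y * x)
    (hnorm : ∀ x ∈ E, conjAlg a x ∈ E) : ∀ x ∈ E, conjAlg a x = x := by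
  classical
  haveI : Finite (Matrix (Fin n) (Fin n) F) := inferInstance
  have hiter : ∀ i, ∀ x ∈ E, (conjAlg a)^[i] x ∈ E := by
    intro i
    induction i with
    | zero => exact fun x hx => hx
    | succ i ih =>
      intro x hx
      rw [Function.iterate_succ_apply']
      exact hnorm _ (ih x hx)
  have hback : ∀ x ∈ E, (conjAlg a).symm x ∈ E := fun x hx => by
    have : (conjAlg a).symm x = (conjAlg a)^[l - 1] x := by
      apply (conjAlg a).injective
      rw [AlgEquiv.apply_symm_apply, ← Function.iterate_succ_apply' (conjAlg a),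
        Nat.succ_eq_add_one, Nat.sub_add_cancel hl.one_le, conjAlg_iterate_prime hal]
    rw [this]
    exact hiter _ x hx
  -- a minimal submodule
  let P : Submodule F (Fin n → F) → Prop := fun W => W ≠ ⊥ ∧ ∀ x ∈ E, ∀ w ∈ W, x *ᵥ w ∈ W
  obtain ⟨U, ⟨hU0, hUE⟩, hUmin⟩ := wellFounded_lt.has_min {W | P W}
    ⟨⊤, top_ne_bot, fun _ _ _ _ => Submodule.mem_top⟩
  have hinvU : ∀ x ∈ E, ∀ w ∈ U, w ≠ 0 → x *ᵥ w = 0 → ∀ u ∈ U, x *ᵥ u = 0 := by
    intro x hx w hw hw0 hxw u hu
    have hP : P (U ⊓ LinearMap.ker (Matrix.mulVecLin x)) := by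
      refine ⟨fun h => hw0 ((Submodule.mem_bot F).1 (h ▸ ⟨hw, by simpa using hxw⟩)),
        fun y hy v hv => ⟨hUE y hy v hv.1, ?_⟩⟩
      have hv2 : x *ᵥ v = 0 := by simpa using hv.2
      show x.mulVecLin (y *ᵥ v) = 0
      rw [Matrix.mulVecLin_apply, Matrix.mulVec_mulVec, hcomm x hx y hy, ← Matrix.mulVec_mulVec,
        hv2, Matrix.mulVec_zero]
    have heq : U ⊓ LinearMap.ker (Matrix.mulVecLin x) = U :=
      eq_of_le_of_not_lt inf_le_left (hUmin _ hP)
    have := (heq.ge hu).2
    simpa using this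
  obtain ⟨u₀, hu₀, hu₀0⟩ := Submodule.exists_mem_ne_zero_of_ne_bot hU0
  -- the annihilator, and its conjugates
  let J : Set (Matrix (Fin n) (Fin n) F) := {x | x ∈ E ∧ x *ᵥ u₀ = 0}
  let σ : Set (Matrix (Fin n) (Fin n) F) → Set (Matrix (Fin n) (Fin n) F) := Set.image (conjAlg a)
  have hσl : σ^[l] J = J := by
    show (Set.image (conjAlg a))^[l] J = J
    rw [← Set.image_iterate_eq]
    simp [conjAlg_iterate_prime hal]
  have hσi : ∀ i, σ^[i] J = {x | x ∈ E ∧ x *ᵥ (((a ^ i : GL (Fin n) F) : Matrix (Fin n) (Fin n) F) *ᵥ u₀) = 0} := by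
    intro i
    induction i with
    | zero => simp [J]
    | succ i ih =>
      rw [Function.iterate_succ_apply', ih]
      ext x
      constructor
      · rintro ⟨y, ⟨hy, hy0⟩, rfl⟩
        refine ⟨hnorm y hy, ?_⟩
        show ((a : Matrix (Fin n) (Fin n) F) * y * _) *ᵥ _ = 0
        simp only [Matrix.mulVec_mulVec, pow_succ', Units.val_mul, mul_assoc]
        rw [Units.inv_mul_cancel_left, ← Matrix.mulVec_mulVec, ← Matrix.mulVec_mulVec, hy0,
          Matrix.mulVec_zero]
      · rintro ⟨hx, hx0⟩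
        refine ⟨(conjAlg a).symm x, ⟨hback x hx, ?_⟩, (conjAlg a).apply_symm_apply x⟩
        show (((a⁻¹ : GL (Fin n) F) : Matrix (Fin n) (Fin n) F) * x * _) *ᵥ _ = 0
        rw [pow_succ', Units.val_mul] at hx0
        simp only [Matrix.mulVec_mulVec, mul_assoc]
        rw [← Matrix.mulVec_mulVec, ← Matrix.mulVec_mulVec (v := u₀)] at *
        rw [← Matrix.mulVec_mulVec, hx0, Matrix.mulVec_zero]
  have hper : Function.minimalPeriod σ J = 1 := by
    rcases hl.eq_one_or_self_of_dvd _
      (Function.IsPeriodicPt.minimalPeriod_dvd (show Function.IsPeriodicPt σ l J from hσl)) with h | h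
    · exact h
    exfalso
    let v : Fin l → (Fin n → F) := fun i => ((a ^ (i : ℕ) : GL (Fin n) F) : Matrix (Fin n) (Fin n) F) *ᵥ u₀
    have hne : ∀ i j : Fin l, i ≠ j → ∃ x ∈ E, x *ᵥ v j = 0 ∧ x *ᵥ v i ≠ 0 := by
      intro i j hij
      by_contra hc
      push Not at hc
      have hsub : σ^[(j : ℕ)] J ⊆ σ^[(i : ℕ)] J := by
        rw [hσi, hσi]
        exact fun x hx => ⟨hx.1, hc x hx.1 hx.2⟩
      have hcard : ∀ k, (σ^[k] J).ncard = J.ncard := by
        intro k
        induction k with
        | zero => rfl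
        | succ k ih =>
          rw [Function.iterate_succ_apply']
          exact (Set.ncard_image_of_injective _ (conjAlg a).injective).trans ih
      have heq := Set.eq_of_subset_of_ncard_le hsub (by rw [hcard, hcard]) (Set.toFinite _)
      exact hij (Fin.ext (Function.iterate_injOn_Iio_minimalPeriod
        (show (i : ℕ) ∈ Set.Iio (Function.minimalPeriod σ J) by rw [h]; exact i.2)
        (show (j : ℕ) ∈ Set.Iio (Function.minimalPeriod σ J) by rw [h]; exact j.2) heq.symm))
    -- multiplication is injective on each translate of `U`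
    have htr : ∀ (i : Fin l), ∀ y ∈ E, y *ᵥ v i ≠ 0 → ∀ x ∈ E, x *ᵥ v i ≠ 0 → (x * y) *ᵥ v i ≠ 0 := by
      intro i y hy hy0 x hx hx0 h0
      set g := (a ^ (i : ℕ) : GL (Fin n) F)
      have hg : ∀ z ∈ E, ((g⁻¹ : GL (Fin n) F) : Matrix (Fin n) (Fin n) F) * z * (g : Matrix (Fin n) (Fin n) F) ∈ E := by
        intro z hz
        have hall : ∀ k, ∀ z ∈ E, ((conjAlg a).symm)^[k] z ∈ E := by
          intro k
          induction k with
          | zero => exact fun z hz => hz
          | succ k ih => exact fun z hz => by rw [Function.iterate_succ_apply']; exact hback _ (ih z hz)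
        have e : ((conjAlg a).symm)^[(i : ℕ)] z = ((g⁻¹ : GL (Fin n) F) : Matrix (Fin n) (Fin n) F) * z * (g : Matrix (Fin n) (Fin n) F) := by
          apply (conjAlg a).injective.iterate (i : ℕ)
          rw [(Function.LeftInverse.iterate (conjAlg a).apply_symm_apply (i : ℕ)) z,
            conjAlg_pow_apply]
          simp [g, mul_assoc]
        exact e ▸ hall _ z hz
      have hzero : ∀ z : Matrix (Fin n) (Fin n) F, z *ᵥ v i = 0 ↔
          (((g⁻¹ : GL (Fin n) F) : Matrix (Fin n) (Fin n) F) * z * (g : Matrix (Fin n) (Fin n) F)) *ᵥ u₀ = 0 := by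
        intro z
        rw [← Matrix.mulVec_mulVec, ← Matrix.mulVec_mulVec]
        show z *ᵥ ((g : Matrix (Fin n) (Fin n) F) *ᵥ u₀) = 0 ↔ _
        refine ⟨fun h => by rw [h, Matrix.mulVec_zero], fun h => ?_⟩
        have := congrArg (fun w => (g : Matrix (Fin n) (Fin n) F) *ᵥ w) h
        simpa [Matrix.mulVec_mulVec] using this
      rw [Ne, hzero] at hy0 hx0
      have h1 := (hzero _).1 h0
      apply hx0
      refine hinvU _ (hg x hx) _ (hUE _ (hg y hy) u₀ hu₀) hy0 ?_ u₀ hu₀
      rw [Matrix.mulVec_mulVec]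
      simpa [mul_assoc] using h1
    have hsep : ∀ i : Fin l, ∀ s : Finset (Fin l), i ∉ s →
        ∃ x ∈ E, x *ᵥ v i ≠ 0 ∧ ∀ j ∈ s, x *ᵥ v j = 0 := by
      intro i s
      induction s using Finset.induction with
      | empty =>
        refine fun _ => ⟨1, one_mem _, ?_, by simp⟩
        rw [Matrix.one_mulVec]
        intro h0
        apply hu₀0
        have := congrArg (fun w => (((a ^ (i : ℕ))⁻¹ : GL (Fin n) F) : Matrix (Fin n) (Fin n) F) *ᵥ w) h0
        simpa [v, Matrix.mulVec_mulVec] using this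
      | insert j s hj ih =>
        intro hi
        obtain ⟨x, hx, hxi, hxs⟩ := ih (fun h => hi (Finset.mem_insert_of_mem h))
        obtain ⟨y, hy, hyj, hyi⟩ := hne i j (fun h => hi (h ▸ Finset.mem_insert_self j s))
        refine ⟨x * y, mul_mem hx hy, htr i y hy hyi x hx hxi, fun k hk => ?_⟩
        rcases Finset.mem_insert.1 hk with rfl | hk
        · rw [← Matrix.mulVec_mulVec, hyj, Matrix.mulVec_zero]
        · rw [hcomm x hx y hy, ← Matrix.mulVec_mulVec, hxs k hk, Matrix.mulVec_zero]
    have hli : LinearIndependent F v := by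
      rw [Fintype.linearIndependent_iff]
      intro c hc i
      obtain ⟨x, -, hxi, hxs⟩ := hsep i (Finset.univ.erase i) (by simp)
      have := congrArg (x *ᵥ ·) hc
      simp only [Matrix.mulVec_sum, Matrix.mulVec_smul, Matrix.mulVec_zero] at this
      rw [Finset.sum_eq_single i (fun j _ hji => by rw [hxs j (by simp [hji]), smul_zero])
        (by simp)] at this
      exact (smul_eq_zero.1 this).resolve_right hxi
    have := hli.fintype_card_le_finrank
    simp at this
    omega
  have hfix : σ J = J := by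
    have := Function.iterate_minimalPeriod (f := σ) (x := J)
    rwa [hper] at this
  -- `E` acts without zero divisors
  let W : Submodule F (Fin n → F) := ⨅ x : J, LinearMap.ker (Matrix.mulVecLin (x : Matrix (Fin n) (Fin n) F))
  have hmemW : ∀ w, w ∈ W ↔ ∀ x ∈ J, x *ᵥ w = 0 := fun w => by simp [W, Submodule.mem_iInf]
  have hWtop : W = ⊤ := by
    refine (hirr W ?_).resolve_left fun h => hu₀0 ?_
    · rintro _ ⟨w, hw, rfl⟩
      rw [hmemW]
      intro x hx
      rw [← hfix] at hx
      obtain ⟨y, hy, rfl⟩ := hx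
      rw [Matrix.toLin'_apply, Matrix.mulVec_mulVec]
      show ((a : Matrix (Fin n) (Fin n) F) * y * _ * _) *ᵥ w = 0
      rw [mul_assoc _ _ (a : Matrix (Fin n) (Fin n) F), Units.inv_mul, mul_one,
        ← Matrix.mulVec_mulVec, (hmemW w).1 hw y hy, Matrix.mulVec_zero]
    · have : u₀ ∈ W := (hmemW u₀).2 fun x hx => hx.2
      simpa [h] using this
  have hdom : ∀ x ∈ E, x *ᵥ u₀ = 0 → x = 0 := fun x hx h0 =>
    Matrix.ext_iff_mulVec.2 fun w => by
      rw [Matrix.zero_mulVec]
      exact (hmemW w).1 (hWtop ▸ Submodule.mem_top) x ⟨hx, h0⟩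
  -- `E` is a field of degree at most `n`
  haveI : Nontrivial (Fin n → F) := ⟨⟨u₀, 0, hu₀0⟩⟩
  haveI : Nontrivial E := ⟨⟨0, 1, fun h => hu₀0 (by
    have := congrArg (fun m : Matrix (Fin n) (Fin n) F => m *ᵥ u₀) (congrArg Subtype.val h)
    simpa using this.symm)⟩⟩
  letI : CommRing E := { (inferInstance : Ring E) with
    mul_comm := fun x y => Subtype.ext (hcomm _ x.2 _ y.2) }
  haveI : NoZeroDivisors E := ⟨fun {x y} hxy => by
    rw [or_iff_not_imp_right]
    intro hy
    refine Subtype.ext (hdom _ x.2 ?_)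
    have h1 : (y : Matrix (Fin n) (Fin n) F) *ᵥ u₀ ≠ 0 := fun h => hy (Subtype.ext (hdom _ y.2 h))
    refine hinvU _ x.2 _ (hUE _ y.2 u₀ hu₀) h1 ?_ u₀ hu₀
    rw [Matrix.mulVec_mulVec]
    have : (x : Matrix (Fin n) (Fin n) F) * y = 0 := congrArg Subtype.val hxy
    rw [this, Matrix.zero_mulVec]⟩
  haveI : IsDomain E := NoZeroDivisors.to_isDomain E
  letI : Field E := (Finite.isDomain_to_isField E).toField
  have hdim : Module.finrank F E ≤ n := by
    let f : E →ₗ[F] (Fin n → F) :=
      { toFun := fun x => (x : Matrix (Fin n) (Fin n) F) *ᵥ u₀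
        map_add' := fun x y => by simp [Matrix.add_mulVec]
        map_smul' := fun c x => by simp [Matrix.smul_mulVec] }
    have hf : Function.Injective f := by
      rw [← LinearMap.ker_eq_bot, Submodule.eq_bot_iff]
      exact fun x hx => Subtype.ext (hdom _ x.2 hx)
    simpa using LinearMap.finrank_le_finrank_of_injective hf
  let φ : E ≃ₐ[F] E := AlgEquiv.ofBijective
    (((conjAlg a).toAlgHom.comp E.val).codRestrict E fun x => hnorm _ x.2)
    (Finite.injective_iff_bijective.1 fun x y h =>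
      Subtype.ext ((conjAlg a).injective (congrArg Subtype.val h)))
  have hφ : ∀ i, ∀ x : E, (((φ ^ i) x : E) : Matrix (Fin n) (Fin n) F) = (conjAlg a)^[i] x := by
    intro i
    induction i with
    | zero => intro x; simp
    | succ i ih =>
      intro x
      rw [Function.iterate_succ_apply', ← ih x, pow_succ']
      rfl
  have hord : orderOf φ ∣ l := orderOf_dvd_of_pow_eq_one (AlgEquiv.ext fun x => Subtype.ext (by
    rw [hφ, conjAlg_iterate_prime hal]; rfl))
  have hone : φ = 1 := by
    rw [← orderOf_eq_one_iff]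
    rcases hl.eq_one_or_self_of_dvd _ hord with h | h
    · exact h
    have h1 : orderOf φ ∣ Nat.card (E ≃ₐ[F] E) := orderOf_dvd_natCard φ
    rw [h, IsGalois.card_aut_eq_finrank F E] at h1
    exact absurd (Nat.le_of_dvd Module.finrank_pos h1) (by omega)
  intro x hx
  have := congrArg (fun ψ : E ≃ₐ[F] E => ((ψ ⟨x, hx⟩ : E) : Matrix (Fin n) (Fin n) F)) hone
  exact this

/-- No non-scalar projectively abelian subgroup of `SL n` is normalised by `a` with only scalar
fixed points. -/
theorem abelian_le_scalars {F : Type*} [Field F] [Fintype F] {n : ℕ} [Fact n.Prime] (hn : Odd n)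
    {a : GL (Fin n) F} {l : ℕ} (hl : l.Prime) (hln : 2 * n < l)
    (hal : a ^ l ∈ scalars (Fin n) F)
    (hirr : ∀ W : Submodule F (Fin n → F), W.map (Matrix.toLin' (a : Matrix (Fin n) (Fin n) F)) ≤ W → W = ⊥ ∨ W = ⊤)
    {D : Subgroup (GL (Fin n) F)} (hD : D ≤ specialLinear (Fin n) F)
    (hcomm : ∀ x ∈ D, ∀ y ∈ D, x * y * x⁻¹ * y⁻¹ ∈ scalars (Fin n) F)
    (hnorm : ∀ x ∈ D, a * x * a⁻¹ ∈ D)
    (hfix : ∀ x ∈ D, a * x * a⁻¹ * x⁻¹ ∈ scalars (Fin n) F → x ∈ scalars (Fin n) F) :
    D ≤ scalars (Fin n) F := by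
  classical
  have _ := hn
  have hnp : n.Prime := Fact.out
  haveI : NeZero n := ⟨hnp.ne_zero⟩
  -- surjectivity of conjugation on `D`
  have hnorm' : ∀ y ∈ D, ∃ x ∈ D, a * x * a⁻¹ = y := by
    intro y hy
    obtain ⟨⟨x, hx⟩, h⟩ := Finite.surjective_of_injective
      (f := fun x : D => (⟨a * x * a⁻¹, hnorm x x.2⟩ : D))
      (fun x y h => Subtype.ext (mul_left_cancel (mul_right_cancel (congrArg Subtype.val h)))) ⟨y, hy⟩
    exact ⟨x, hx, congrArg Subtype.val h⟩
  -- the radical is scalar
  have hrad : ∀ x ∈ D, (∀ y ∈ D, x * y = y * x) → x ∈ scalars (Fin n) F := by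
    intro x hx hxc
    let R : Set (Matrix (Fin n) (Fin n) F) :=
      {m | ∃ z ∈ D, (∀ y ∈ D, z * y = y * z) ∧ (z : Matrix (Fin n) (Fin n) F) = m}
    have hRc : ∀ u ∈ R, ∀ v ∈ R, u * v = v * u := by
      rintro _ ⟨u, hu, huc, rfl⟩ _ ⟨v, hv, -, rfl⟩
      rw [← Units.val_mul, huc v hv, Units.val_mul]
    have hEc : ∀ u ∈ Algebra.adjoin F R, ∀ v ∈ Algebra.adjoin F R, u * v = v * u := by
      intro u hu v hv
      have := Algebra.isMulCommutative_adjoin F hRc
      exact congrArg Subtype.val (mul_comm' (⟨u, hu⟩ : Algebra.adjoin F R) ⟨v, hv⟩)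
    have hEn : ∀ u ∈ Algebra.adjoin F R, conjAlg a u ∈ Algebra.adjoin F R := by
      intro u hu
      refine (Algebra.adjoin_le (S := (Algebra.adjoin F R).comap (conjAlg a).toAlgHom) ?_) hu
      rintro _ ⟨z, hz, hzc, rfl⟩
      refine Algebra.subset_adjoin ⟨a * z * a⁻¹, hnorm z hz, fun y hy => ?_, by simp [conjAlg]⟩
      obtain ⟨y', hy', rfl⟩ := hnorm' y hy
      calc a * z * a⁻¹ * (a * y' * a⁻¹) = a * (z * y') * a⁻¹ := by group
        _ = a * (y' * z) * a⁻¹ := by rw [hzc y' hy']
        _ = a * y' * a⁻¹ * (a * z * a⁻¹) := by group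
    have h1 := centralises_comm_subalgebra hl (by omega) hal hirr (Algebra.adjoin F R) hEc hEn
      (x : Matrix (Fin n) (Fin n) F) (Algebra.subset_adjoin ⟨x, hx, hxc, rfl⟩)
    refine hfix x hx ?_
    have h2 : a * x * a⁻¹ = x := Units.ext (by simpa [conjAlg] using h1)
    rw [h2, mul_inv_cancel]
    exact one_mem _
  -- the commutator scalars
  have hcs : ∀ x ∈ D, ∀ y ∈ D, ∃ c : F, c ≠ 0 ∧ c ^ n = 1 ∧
      (x : Matrix (Fin n) (Fin n) F) * y = c • ((y : Matrix (Fin n) (Fin n) F) * x) := by
    intro x hx y hy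
    obtain ⟨c, hc⟩ := (mem_scalars_iff _).1 (hcomm x hx y hy)
    refine ⟨c, c.ne_zero, ?_, ?_⟩
    · have h1 := congrArg Matrix.det hc
      have hdet : ∀ g ∈ D, (g : Matrix (Fin n) (Fin n) F).det = 1 := fun g hg =>
        congrArg Units.val (MonoidHom.mem_ker.1 (hD hg))
      rw [hdet _ (mul_mem (mul_mem (mul_mem hx hy) (inv_mem hx)) (inv_mem hy)), Matrix.det_smul,
        Matrix.det_one, mul_one, Fintype.card_fin] at h1
      exact h1.symm
    · have e : x * y = x * y * x⁻¹ * y⁻¹ * (y * x) := by group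
      rw [← Units.val_mul x, e, Units.val_mul, hc, Units.val_mul, Matrix.smul_mul, Matrix.one_mul]
  have hpow : ∀ x ∈ D, x ^ n ∈ scalars (Fin n) F := by
    intro x hx
    refine hrad _ (pow_mem hx n) fun y hy => Units.ext ?_
    obtain ⟨c, -, hcn, hc⟩ := hcs x hx y hy
    have hk : ∀ k : ℕ, (x : Matrix (Fin n) (Fin n) F) ^ k * y
        = c ^ k • ((y : Matrix (Fin n) (Fin n) F) * (x : Matrix (Fin n) (Fin n) F) ^ k) := by
      intro k
      induction k with
      | zero => simp
      | succ k ih =>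
        rw [pow_succ, mul_assoc, hc, Matrix.mul_smul, ← mul_assoc, ih, Matrix.smul_mul, smul_smul,
          mul_comm c, ← pow_succ, mul_assoc]
    simp only [Units.val_mul, Units.val_pow_eq_pow_val]
    rw [hk n, hcn, one_smul]
  -- representatives are independent
  let Z : Subgroup D := (scalars (Fin n) F).subgroupOf D
  haveI : Z.Normal := inferInstance
  haveI : Finite (D ⧸ Z) := inferInstance
  haveI := Fintype.ofFinite (D ⧸ Z)
  let rep : D ⧸ Z → Matrix (Fin n) (Fin n) F := fun q => ((q.out : D) : GL (Fin n) F)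
  have hsep : ∀ q q' : D ⧸ Z, q ≠ q' → ∃ y : D, ∃ c c' : F, c ≠ c' ∧
      ((y : GL (Fin n) F) : Matrix (Fin n) (Fin n) F) * rep q = c • (rep q * (y : GL (Fin n) F)) ∧
      ((y : GL (Fin n) F) : Matrix (Fin n) (Fin n) F) * rep q' = c' • (rep q' * (y : GL (Fin n) F)) := by
    intro q q' hqq'
    by_contra hcon
    push Not at hcon
    apply hqq'
    rw [← q.out_eq', ← q'.out_eq']
    refine QuotientGroup.eq.2 (Subgroup.mem_subgroupOf.2 ?_)
    refine hrad _ (q.out⁻¹ * q'.out).2 fun y hy => Units.ext ?_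
    obtain ⟨c, hc0, -, hc⟩ := hcs y hy _ q.out.2
    obtain ⟨c', hc0', -, hc'⟩ := hcs y hy _ q'.out.2
    by_cases hcc : c = c'
    · subst hcc
      set A : GL (Fin n) F := (q.out : D).1
      set B : GL (Fin n) F := (q'.out : D).1
      show ((A⁻¹ * B * y : GL (Fin n) F) : Matrix (Fin n) (Fin n) F) = (y * (A⁻¹ * B) : GL (Fin n) F)
      simp only [Units.val_mul]
      -- `y A = c A y` gives `A⁻¹ y = c y A⁻¹`
      have hA : ((A⁻¹ : GL (Fin n) F) : Matrix (Fin n) (Fin n) F) * y
          = c • ((y : Matrix (Fin n) (Fin n) F) * (A⁻¹ : GL (Fin n) F)) := by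
        have := congrArg (fun m => ((A⁻¹ : GL (Fin n) F) : Matrix (Fin n) (Fin n) F) * m *
          ((A⁻¹ : GL (Fin n) F) : Matrix (Fin n) (Fin n) F)) hc
        simpa [mul_assoc] using this
      rw [← mul_assoc (y : Matrix (Fin n) (Fin n) F)]
      have h2 : (B : Matrix (Fin n) (Fin n) F) * y = c⁻¹ • ((y : Matrix (Fin n) (Fin n) F) * B) := by
        rw [hc', smul_smul, inv_mul_cancel₀ hc0, one_smul]
      rw [mul_assoc _ (B : Matrix (Fin n) (Fin n) F), h2, Matrix.mul_smul, ← mul_assoc, hA,
        Matrix.smul_mul, smul_smul, inv_mul_cancel₀ hc0, one_smul]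
    · exact absurd hc' (hcon ⟨y, hy⟩ c c' hcc hc)
  have hall : ∀ s : Finset (D ⧸ Z), ∀ f : D ⧸ Z → F, ∑ q ∈ s, f q • rep q = 0 → ∀ q ∈ s, f q = 0 := by
    intro s
    induction s using Finset.strongInduction with
    | H s ih =>
      intro f hf q hq
      have hone : ∀ q' ∈ s, ∀ q'' ∈ s, q' ≠ q'' → f q'' = 0 := by
        intro q' hq' q'' hq'' hne
        obtain ⟨y, c, c', hcc, hyc, hyc'⟩ := hsep q' q'' hne
        choose χ hχ0 hχn hχ using fun r : D ⧸ Z => hcs y.1 y.2 _ (r.out : D).2
        have hnz : ∀ r : D ⧸ Z, rep r * (y : GL (Fin n) F) ≠ 0 := fun r => by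
          rw [← Units.val_mul]; exact Units.ne_zero _
        have h1 : χ q' = c := smul_left_injective F (hnz q') ((hχ q').symm.trans hyc)
        have h2 : χ q'' = c' := smul_left_injective F (hnz q'') ((hχ q'').symm.trans hyc')
        have hsum : ∑ r ∈ s, (f r * (χ r - χ q')) • rep r = 0 := by
          have e1 := congrArg (fun m => ((y : GL (Fin n) F) : Matrix (Fin n) (Fin n) F) * m *
            (((y : GL (Fin n) F)⁻¹ : GL (Fin n) F) : Matrix (Fin n) (Fin n) F)) hf
          simp only [Finset.mul_sum, Finset.sum_mul, Matrix.mul_smul, Matrix.smul_mul, rep] at e1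
          simp only [hχ, Matrix.smul_mul, smul_smul, mul_assoc, Units.mul_inv, mul_one,
            mul_zero, zero_mul] at e1
          simp only [mul_sub, sub_smul, Finset.sum_sub_distrib]
          rw [e1, zero_sub, neg_eq_zero]
          rw [Finset.sum_congr rfl fun r _ => by rw [mul_comm, ← smul_smul], ← Finset.smul_sum, hf,
            smul_zero]
        rw [← Finset.add_sum_erase s _ hq', sub_self, mul_zero, zero_smul, zero_add] at hsum
        have := ih _ (Finset.erase_ssubset hq') (fun r => f r * (χ r - χ q')) hsum q''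
          (Finset.mem_erase.2 ⟨hne.symm, hq''⟩)
        refine (mul_eq_zero.1 this).resolve_right ?_
        rw [h1, h2, sub_eq_zero]
        exact hcc.symm
      by_cases hex : ∃ q' ∈ s, q' ≠ q
      · obtain ⟨q', hq', hne⟩ := hex
        exact hone q' hq' q hq hne
      · push Not at hex
        rw [Finset.sum_eq_single q (fun r hr hrq => absurd (hex r hr) hrq) (fun h => absurd hq h)]
          at hf
        exact (smul_eq_zero.1 hf).resolve_right (Units.ne_zero _)
  have hcardle : Nat.card (D ⧸ Z) ≤ n ^ 2 := by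
    have hli : LinearIndependent F rep :=
      Fintype.linearIndependent_iff.2 fun f hf q => hall Finset.univ f hf q (Finset.mem_univ q)
    have := hli.fintype_card_le_finrank
    rw [Module.finrank_matrix] at this
    simpa [sq, Nat.card_eq_fintype_card] using this
  haveI : Fact n.Prime := ⟨hnp⟩
  have hpg : IsPGroup n (D ⧸ Z) := by
    intro q
    refine ⟨1, ?_⟩
    induction q using QuotientGroup.induction_on with
    | H x =>
      rw [pow_one, ← QuotientGroup.mk_pow, QuotientGroup.eq_one_iff, Subgroup.mem_subgroupOf]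
      exact hpow _ x.2
  -- the action of `a`
  let e : D →* D :=
    { toFun := fun x => ⟨a * x * a⁻¹, hnorm x x.2⟩
      map_one' := Subtype.ext (by simp)
      map_mul' := fun x y => Subtype.ext (by simp [mul_assoc]) }
  let f : Function.End (D ⧸ Z) := fun q => QuotientGroup.map Z Z e (fun x hx => by
    rw [Subgroup.mem_comap, Subgroup.mem_subgroupOf]
    exact (inferInstance : (scalars (Fin n) F).Normal).conj_mem _ hx a) q
  haveI : Fact l.Prime := ⟨hl⟩
  have hfl : f ^ l ^ 1 = 1 := by
    rw [pow_one]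
    funext q
    induction q using QuotientGroup.induction_on with
    | H x =>
      have hit : ∀ i : ℕ, (f ^ i) (x : D ⧸ Z) = ((e^[i] x : D) : D ⧸ Z) := by
        intro i
        induction i with
        | zero => rfl
        | succ i ih =>
          rw [Function.iterate_succ_apply', pow_succ']
          show f ((f ^ i) (x : D ⧸ Z)) = _
          rw [ih]
          rfl
      have hel : ∀ i : ℕ, ((e^[i] x : D) : GL (Fin n) F) = a ^ i * x * (a ^ i)⁻¹ := by
        intro i
        induction i with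
        | zero => simp
        | succ i ih =>
          rw [Function.iterate_succ_apply']
          show a * _ * a⁻¹ = _
          rw [ih, pow_succ']
          group
      rw [hit]
      show _ = (x : D ⧸ Z)
      congr 1
      apply Subtype.ext
      rw [hel]
      obtain ⟨c, hc⟩ := (mem_scalars_iff _).1 hal
      rw [mul_inv_eq_iff_eq_mul]
      refine Units.ext ?_
      rw [Units.val_mul, Units.val_mul, hc, Matrix.smul_mul, Matrix.mul_smul, Matrix.one_mul,
        Matrix.mul_one]
  have hfp : Fintype.card f.fixedPoints = 1 := by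
    rw [Fintype.card_eq_one_iff]
    refine ⟨⟨1, map_one (QuotientGroup.map Z Z e _)⟩, ?_⟩
    rintro ⟨q, hq⟩
    apply Subtype.ext
    show q = 1
    induction q using QuotientGroup.induction_on with
    | H x =>
      rw [QuotientGroup.eq_one_iff, Subgroup.mem_subgroupOf]
      refine hfix _ x.2 ?_
      have h1 : ((e x : D) : D ⧸ Z) = (x : D ⧸ Z) := hq
      rw [QuotientGroup.eq, Subgroup.mem_subgroupOf] at h1
      have h2 := inv_mem ((inferInstance : (scalars (Fin n) F).Normal).conj_mem _ h1 (x : GL (Fin n) F))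
      simpa [e, mul_assoc] using h2
  have hmod := Equiv.Perm.card_fixedPoints_modEq (f := f) hfl
  rw [show Fintype.card (Function.fixedPoints f) = 1 from
    (Fintype.card_congr (Equiv.refl _)).trans hfp] at hmod
  obtain ⟨k, hk⟩ := hpg.exists_card_eq
  have hk2 : k ≤ 2 := (Nat.pow_le_pow_iff_right hnp.one_lt).1 (hk ▸ hcardle)
  rw [← Nat.card_eq_fintype_card, hk] at hmod
  have hdvd := (Nat.modEq_iff_dvd' (Nat.one_le_pow k n hnp.pos)).1 hmod.symm
  intro x hx
  have hk0 : k = 0 := by
    rcases k with _ | _ | _ | k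
    · rfl
    · rw [pow_one] at hdvd
      have := hnp.two_le
      have := Nat.eq_zero_of_dvd_of_lt hdvd (by omega)
      omega
    · have e : n ^ (0 + 1 + 1) - 1 = (n + 1) * (n - 1) := by
        rw [show (0 + 1 + 1) = 2 from rfl]
        simpa using Nat.sq_sub_sq n 1
      rw [e] at hdvd
      rcases hl.dvd_mul.1 hdvd with h | h <;>
        · have := hnp.two_le
          have := Nat.eq_zero_of_dvd_of_lt h (by omega)
          omega
    · omega
  rw [hk0, pow_zero, Nat.card_eq_one_iff_unique] at hk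
  haveI := hk.1
  have := Subsingleton.elim ((⟨x, hx⟩ : D) : D ⧸ Z) 1
  rwa [QuotientGroup.eq_one_iff, Subgroup.mem_subgroupOf] at this

end Cfsg.Agent.MaxSub.SingerGroup
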