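import Cfsg.Agent.MaxSub.FieldSub
import Cfsg.Agent.Elusive.SingerPrime

/-!
# The norm-one torus and a Galois element fixing a point
-/

set_option autoImplicit false
set_option linter.style.haveILetI false

noncomputable section

namespace Cfsg.Agent.MaxSub.SingerGroup

open Matrix Cfsg.Geo
open Cfsg.Agent.Elusive.SingerPrime (orbit orbit_bijective mem_of_commute neZero)

variable {F : Type*} [Field F] [Fintype F] {n : ℕ} [Fact n.Prime]
  {K : Subalgebra F (Matrix (Fin n) (Fin n) F)}

attribute [local instance] neZero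

/-- The determinant on the field is the norm. -/
theorem det_eq_norm (hK : IsFieldSubalgebra n K) (c : K) :
    (c : Matrix (Fin n) (Fin n) F).det = Algebra.norm F c := by
  have hv : (Pi.single (0 : Fin n) 1 : Fin n → F) ≠ 0 := fun h0 => by simpa using congrFun h0 0
  let e := LinearEquiv.ofBijective _ (orbit_bijective hK hv)
  rw [← LinearMap.det_toLin', Algebra.norm_apply, ← LinearMap.det_conj (Algebra.lmul F K c) e]
  congr 1
  refine LinearMap.ext fun u => ?_
  obtain ⟨b, rfl⟩ := e.surjective u
  simp only [LinearMap.comp_apply, LinearEquiv.coe_coe, e.symm_apply_apply, Matrix.toLin'_apply]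
  exact mulVec_mulVec (Pi.single (0 : Fin n) (1 : F)) (c : Matrix (Fin n) (Fin n) F)
    (b : Matrix (Fin n) (Fin n) F)

/-- The number of elements of determinant one in the field. -/
theorem card_det_one (hK : IsFieldSubalgebra n K) :
    Nat.card {x : K // Matrix.det (x : Matrix (Fin n) (Fin n) F) = 1} * (Fintype.card F - 1) =
      Fintype.card F ^ n - 1 := by
  classical
  let _ : Field K := (MaxSub.isField_of_isFieldSubalgebra hK).toField
  have : Fintype K := Fintype.ofFinite K
  have : FiniteDimensional F K := Module.Finite.of_finite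
  let N : Kˣ →* Fˣ := Units.map (Algebra.norm F (S := K) : K →* F)
  have hN : Function.Surjective N := by
    intro c
    obtain ⟨x, hx⟩ := FiniteField.norm_surjective F K (c : F)
    have hx0 : x ≠ 0 := by
      rintro rfl
      rw [Algebra.norm_zero] at hx
      exact c.ne_zero hx.symm
    exact ⟨Units.mk0 x hx0, Units.ext hx⟩
  have e : {x : K // Matrix.det (x : Matrix (Fin n) (Fin n) F) = 1} ≃ N.ker :=
    { toFun := fun x => ⟨Units.mk0 x.1 (by
          intro h
          have hx := x.2
          rw [det_eq_norm hK, h, Algebra.norm_zero] at hx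
          exact zero_ne_one hx),
        Units.ext (by
          show Algebra.norm F x.1 = 1
          rw [← det_eq_norm hK]; exact x.2)⟩
      invFun := fun u => ⟨(u.1 : K), by
        rw [det_eq_norm hK]
        exact congrArg Units.val (MonoidHom.mem_ker.1 u.2)⟩
      left_inv := fun _ => rfl
      right_inv := fun _ => Subtype.ext (Units.ext rfl) }
  rw [Nat.card_congr e]
  have h1 : Nat.card (Kˣ ⧸ N.ker) = Nat.card Fˣ :=
    Nat.card_congr (QuotientGroup.quotientKerEquivOfSurjective N hN).toEquiv
  have h2 := Subgroup.card_eq_card_quotient_mul_card_subgroup N.ker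
  rw [h1, Nat.card_units, Nat.card_units, Nat.card_eq_fintype_card, Nat.card_eq_fintype_card,
    Module.card_eq_pow_finrank (K := F) (V := K), hK.finrank_eq, mul_comm] at h2
  exact h2.symm

/-- A Galois element of determinant one fixing a given point, generating the normaliser over the
field. -/
theorem exists_galois (hn : Odd n) (hK : IsFieldSubalgebra n K) {v : Fin n → F} (hv : v ≠ 0) :
    ∃ s ∈ subalgebraNormalizer K ⊓ specialLinear (Fin n) F,
      (s : Matrix (Fin n) (Fin n) F) *ᵥ v = v ∧ (s : Matrix (Fin n) (Fin n) F) ∉ K ∧ s ^ n = 1 ∧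
      ∀ g ∈ subalgebraNormalizer K,
        ∃ i : ℕ, ((g * (s ^ i)⁻¹ : GL (Fin n) F) : Matrix (Fin n) (Fin n) F) ∈ K := by
  classical
  let _ : Field K := (MaxSub.isField_of_isFieldSubalgebra hK).toField
  have : Fintype K := Fintype.ofFinite K
  have : FiniteDimensional F K := Module.Finite.of_finite
  let e := LinearEquiv.ofBijective _ (orbit_bijective hK hv)
  let φ := FiniteField.frobeniusAlgEquivOfAlgebraic F K
  let T : (Fin n → F) ≃ₗ[F] (Fin n → F) := e.symm.trans (φ.toLinearEquiv.trans e)
  let y : GL (Fin n) F :=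
    Matrix.GeneralLinearGroup.toLin.symm (LinearMap.GeneralLinearGroup.ofLinearEquiv T)
  have hy : ∀ u, (y : Matrix (Fin n) (Fin n) F) *ᵥ u = T u := fun u =>
    LinearMap.toMatrix'_mulVec _ u
  have he : ∀ b : K, e b = (b : Matrix (Fin n) (Fin n) F) *ᵥ v := fun b => rfl
  have hye : ∀ b : K, (y : Matrix (Fin n) (Fin n) F) *ᵥ e b = e (φ b) := fun b => by
    rw [hy]; show e (φ (e.symm (e b))) = _; rw [e.symm_apply_apply]
  have hpow : ∀ (i : ℕ) (b : K), (y : Matrix (Fin n) (Fin n) F) ^ i *ᵥ e b = e ((φ ^ i) b) := by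
    intro i
    induction i with
    | zero => intro b; rw [pow_zero, one_mulVec, pow_zero, AlgEquiv.one_apply]
    | succ i ih =>
      intro b; rw [pow_succ, ← mulVec_mulVec, hye, ih, pow_succ, AlgEquiv.mul_apply]
  have hφn : φ ^ n = 1 := by
    have := pow_orderOf_eq_one φ
    rwa [FiniteField.orderOf_frobeniusAlgEquivOfAlgebraic F K, hK.finrank_eq] at this
  have hconj : ∀ (i : ℕ) (k : K), ((y ^ i : GL (Fin n) F) : Matrix (Fin n) (Fin n) F) * k =
      ((φ ^ i) k : K).1 * (y ^ i : GL (Fin n) F) := by
    intro i k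
    rw [Units.val_pow_eq_pow_val]
    apply Matrix.toLin'.injective
    refine LinearMap.ext fun u => ?_
    obtain ⟨b, rfl⟩ := e.surjective u
    rw [Matrix.toLin'_apply, Matrix.toLin'_apply, ← mulVec_mulVec, ← mulVec_mulVec, hpow,
      show (k : Matrix (Fin n) (Fin n) F) *ᵥ e b = e (k * b) by
        rw [he, he]; exact mulVec_mulVec _ _ _,
      hpow, map_mul, he, he]
    exact (mulVec_mulVec _ _ _).symm
  have hyN : y ∈ subalgebraNormalizer K := MaxSub.mem_normalizer_iff_map_le.2 fun k hk => by
    have := hconj 1 ⟨k, hk⟩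
    rw [pow_one, pow_one] at this
    rw [this, mul_assoc, Units.mul_inv, mul_one]
    exact (φ ⟨k, hk⟩ : K).2
  have hdet : (y : Matrix (Fin n) (Fin n) F).det = 1 := by
    have h0 : (y : Matrix (Fin n) (Fin n) F).det = LinearMap.det (φ.toLinearEquiv : K →ₗ[F] K) := by
      rw [← LinearMap.det_toLin', ← LinearMap.det_conj (φ.toLinearEquiv : K →ₗ[F] K) e]
      congr 1
      refine LinearMap.ext fun u => ?_
      rw [Matrix.toLin'_apply, hy]
      rfl
    let B := IsGalois.normalBasis F K
    let p : Equiv.Perm (K ≃ₐ[F] K) := Equiv.mulLeft φ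
    have hp : (φ.toLinearEquiv : K →ₗ[F] K) ∘ B = B ∘ p := by
      funext σ
      simp only [Function.comp_apply, LinearEquiv.coe_coe, AlgEquiv.toLinearEquiv_apply, p,
        Equiv.coe_mulLeft, B]
      conv_lhs => rw [IsGalois.normalBasis_apply]
      conv_rhs => rw [IsGalois.normalBasis_apply]
      rfl
    have hs : Equiv.Perm.sign p = 1 := by
      have hpn : p ^ n = 1 := by
        have hp' : ∀ (i : ℕ) (σ : K ≃ₐ[F] K), (p ^ i) σ = φ ^ i * σ := by
          intro i
          induction i with
          | zero => intro σ; simp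
          | succ i ih =>
            intro σ
            rw [pow_succ', Equiv.Perm.mul_apply, ih, pow_succ', mul_assoc]
            rfl
        ext1 σ
        rw [hp', hφn, one_mul, Equiv.Perm.one_apply]
      have h := congrArg Equiv.Perm.sign hpn
      rw [map_pow, map_one] at h
      rcases Int.units_eq_one_or (Equiv.Perm.sign p) with h' | h'
      · exact h'
      · rw [h', hn.neg_one_pow] at h
        exact absurd h (by decide)
    have h1 := B.det_comp (φ.toLinearEquiv : K →ₗ[F] K) B
    rw [hp, B.det.map_perm, hs, one_smul, B.det_self, mul_one] at h1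
    rw [h0, ← h1]
  have hyn : y ^ n = 1 := by
    apply Units.ext
    rw [Units.val_pow_eq_pow_val, Units.val_one]
    apply Matrix.toLin'.injective
    refine LinearMap.ext fun u => ?_
    obtain ⟨b, rfl⟩ := e.surjective u
    rw [Matrix.toLin'_apply, Matrix.toLin'_apply, hpow, one_mulVec, hφn, AlgEquiv.one_apply]
  have hyv : (y : Matrix (Fin n) (Fin n) F) *ᵥ v = v := by
    have h1 : e 1 = v := by rw [he]; exact one_mulVec v
    rw [← h1, hye, map_one]
  refine ⟨y, Subgroup.mem_inf.2 ⟨hyN, ?_⟩, hyv, ?_, hyn, ?_⟩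
  · change Matrix.GeneralLinearGroup.det y = 1
    exact Units.ext hdet
  · intro hyK
    have h1 : φ = 1 := by
      refine AlgEquiv.ext fun k => ?_
      have hk := hconj 1 k
      rw [pow_one, pow_one, hK.comm _ hyK _ k.2] at hk
      have h2 := congrArg (fun M => M * ((y⁻¹ : GL (Fin n) F) : Matrix (Fin n) (Fin n) F)) hk
      simp only [mul_assoc, Units.mul_inv, mul_one] at h2
      exact (Subtype.ext h2).symm
    have h3 : orderOf φ = n := by
      rw [FiniteField.orderOf_frobeniusAlgEquivOfAlgebraic F K, hK.finrank_eq]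
    rw [h1, orderOf_one] at h3
    exact (Fact.out : n.Prime).ne_one h3.symm
  · intro g hg
    let σ : K →ₐ[F] K :=
      { toFun := fun k => ⟨_, (hg k).1 k.2⟩
        map_one' := Subtype.ext (by simp)
        map_mul' := fun a b => Subtype.ext (by simp [mul_assoc])
        map_zero' := Subtype.ext (by simp)
        map_add' := fun a b => Subtype.ext (by simp [mul_add, add_mul])
        commutes' := fun c => Subtype.ext (by
          show (g : Matrix (Fin n) (Fin n) F) * algebraMap F (Matrix (Fin n) (Fin n) F) c * _ = _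
          rw [← Algebra.commutes, mul_assoc, Units.mul_inv, mul_one]
          rfl) }
    let σe : K ≃ₐ[F] K := AlgEquiv.ofBijective σ
      ⟨σ.toRingHom.injective, Finite.surjective_of_injective σ.toRingHom.injective⟩
    obtain ⟨i, hi⟩ := (FiniteField.bijective_frobeniusAlgEquivOfAlgebraic_pow F K).2 σe
    refine ⟨i, mem_of_commute hK fun k hk => ?_⟩
    have hgk : ∀ k' : K, (g : Matrix (Fin n) (Fin n) F) * k' =
        ((φ ^ (i : ℕ)) k' : K).1 * (g : Matrix (Fin n) (Fin n) F) := by
      intro k'
      have : (φ ^ (i : ℕ)) k' = σ k' := by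
        rw [show φ ^ (i : ℕ) = σe from hi]; rfl
      rw [this]
      show _ = (g : Matrix (Fin n) (Fin n) F) * k' * _ * _
      rw [mul_assoc _ _ (g : Matrix (Fin n) (Fin n) F), Units.inv_mul, mul_one]
    let k' : K := (φ ^ (i : ℕ)).symm ⟨k, hk⟩
    have hk' : ((φ ^ (i : ℕ)) k' : K).1 = k := by
      simp [k']
    have h1 : ((y ^ (i : ℕ) : GL (Fin n) F)⁻¹ : GL (Fin n) F).1 * k =
        k'.1 * ((y ^ (i : ℕ) : GL (Fin n) F)⁻¹ : GL (Fin n) F).1 := by
      have h2 := hconj i k'
      rw [hk'] at h2
      calc _ = ((y ^ (i : ℕ) : GL (Fin n) F)⁻¹).1 * (k * (y ^ (i : ℕ) : GL (Fin n) F).1) *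
            ((y ^ (i : ℕ) : GL (Fin n) F)⁻¹).1 := by
              rw [mul_assoc, mul_assoc, Units.mul_inv, mul_one]
        _ = _ := by rw [← h2, ← mul_assoc, Units.inv_mul, one_mul]
    rw [Units.val_mul, mul_assoc, h1, ← mul_assoc, hgk, hk', mul_assoc]

end Cfsg.Agent.MaxSub.SingerGroup
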