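import Mathlib

/-!
Self-centralising commutative subgroups are Hall subgroups; invariant abelian subgroups of normal
subgroups of coprime order.
-/

set_option autoImplicit false
set_option linter.style.haveILetI false

namespace Cfsg.Agent.MaxSub.SingerGroup

universe u

variable {G : Type u} [Group G] [Finite G]

/-- A self-centralising commutative subgroup with small automiser is a Hall subgroup. -/
theorem coprime_index_of_cc {A : Subgroup G} (hcomm : ∀ a ∈ A, ∀ b ∈ A, a * b = b * a)
    (hcc : ∀ x ∈ A, x ≠ 1 → ∀ g : G, g * x = x * g → g ∈ A)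
    (hcop : (Nat.card A).Coprime (A.relIndex (Subgroup.normalizer (A : Set G)))) :
    (Nat.card A).Coprime A.index := by
  refine Nat.coprime_of_dvd fun r hr hrA hri => ?_
  haveI := Fact.mk hr
  obtain ⟨R⟩ : Nonempty (Sylow r A) := inferInstance
  set R' : Subgroup G := (R : Subgroup A).map A.subtype with hR'
  set v := (Nat.card A).factorization r with hv
  have hcard : Nat.card R' = r ^ v := by
    rw [hR', Subgroup.card_map_of_injective A.subtype_injective, Sylow.card_eq_multiplicity]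
  have hdvd : r ^ (v + 1) ∣ Nat.card G := by
    rw [← A.card_mul_index, pow_succ]
    exact mul_dvd_mul (Nat.ordProj_dvd _ _) hri
  have h1 := Sylow.prime_pow_dvd_card_normalizer hdvd hcard
  have hv1 : 0 < v := hr.factorization_pos_of_dvd Nat.card_pos.ne' hrA
  have hle : Subgroup.normalizer (R' : Set G) ≤ Subgroup.normalizer (A : Set G) := by
    have hne : R' ≠ ⊥ := fun hb => by
      rw [hb, Subgroup.card_bot] at hcard
      exact (Nat.one_lt_pow hv1.ne' hr.one_lt).ne' hcard.symm
    obtain ⟨⟨x0, hx0⟩, hne0⟩ := Subgroup.ne_bot_iff_exists_ne_one.mp hne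
    have hRA : R' ≤ A := Subgroup.map_subtype_le _
    intro g hg
    have hyR := (Subgroup.mem_normalizer_iff.mp hg x0).mp hx0
    have key : ∀ b ∈ A, g * b * g⁻¹ ∈ A := by
      intro b hb
      refine hcc _ (hRA hyR) (fun h => hne0 (Subtype.ext (conj_eq_one_iff.mp h))) _ ?_
      have := hcomm b hb x0 (hRA hx0)
      calc g * b * g⁻¹ * (g * x0 * g⁻¹) = g * (b * x0) * g⁻¹ := by group
        _ = g * (x0 * b) * g⁻¹ := by rw [this]
        _ = g * x0 * g⁻¹ * (g * b * g⁻¹) := by group
    let F : A → A := fun b => ⟨g * b * g⁻¹, key b b.2⟩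
    have hsurj : Function.Surjective F := Finite.surjective_of_injective fun b c hbc =>
      Subtype.ext (mul_left_cancel (mul_right_cancel (congrArg Subtype.val hbc)))
    refine Subgroup.mem_normalizer_iff.mpr fun b => ⟨key b, fun hb => ?_⟩
    obtain ⟨c, hc⟩ := hsurj ⟨_, hb⟩
    have : g * (c : G) * g⁻¹ = g * b * g⁻¹ := congrArg Subtype.val hc
    exact (mul_left_cancel (mul_right_cancel this)) ▸ c.2
  have h2 : r ^ (v + 1) ∣ Nat.card (Subgroup.normalizer (A : Set G)) :=
    h1.trans (Subgroup.card_dvd_of_le hle)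
  have h3 : Nat.card (Subgroup.normalizer (A : Set G)) =
      Nat.card A * A.relIndex (Subgroup.normalizer (A : Set G)) := by
    rw [Subgroup.relIndex, ← Nat.card_congr (Subgroup.subgroupOfEquivOfLe
      (Subgroup.le_normalizer (H := A))).toEquiv, Subgroup.card_mul_index]
  rw [h3] at h2
  have hr' : ¬ r ∣ A.relIndex (Subgroup.normalizer (A : Set G)) := fun h =>
    hr.ne_one (Nat.dvd_one.mp (hcop ▸ Nat.dvd_gcd hrA h))
  exact Nat.pow_succ_factorization_not_dvd Nat.card_pos.ne' hr
    ((Nat.Coprime.pow_left _ ((Nat.Prime.coprime_iff_not_dvd hr).mpr hr')).dvd_of_dvd_mul_right h2)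

/-- A nontrivial normal subgroup of order prime to `l` contains a nontrivial commutative subgroup
invariant under a given element of order `l`. -/
theorem exists_invariant_comm (T : Subgroup G) [T.Normal] (hT : T ≠ ⊥) {a : G} {l : ℕ}
    [Fact l.Prime] (hal : a ^ l = 1) (hl : ¬ l ∣ Nat.card T) :
    ∃ D : Subgroup G, D ≤ T ∧ D ≠ ⊥ ∧ (∀ x ∈ D, ∀ y ∈ D, x * y = y * x) ∧
      ∀ x ∈ D, a * x * a⁻¹ ∈ D := by
  obtain ⟨r, hr, hrT⟩ := Nat.exists_prime_and_dvd (show Nat.card T ≠ 1 from fun h =>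
    hT ((Subgroup.card_eq_one).mp h))
  haveI := Fact.mk hr
  let φ : Subgroup.zpowers a →* MulAut T := MulAut.conjNormal.comp (Subgroup.zpowers a).subtype
  letI : MulDistribMulAction (Subgroup.zpowers a) T := MulDistribMulAction.compHom T φ
  have hA : IsPGroup l (Subgroup.zpowers a) := by
    obtain ⟨i, -, hi⟩ := (Nat.dvd_prime_pow Fact.out).mp
      (show orderOf a ∣ l ^ 1 by rw [pow_one]; exact orderOf_dvd_of_pow_eq_one hal)
    exact IsPGroup.of_card (n := i) (by rw [Nat.card_zpowers]; exact hi)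
  have hne : Nonempty (MulAction.fixedPoints (Subgroup.zpowers a) (Sylow r T)) := by
    obtain ⟨P⟩ : Nonempty (Sylow r T) := inferInstance
    by_contra hE
    rw [not_nonempty_iff] at hE
    have h1 := hA.card_modEq_card_fixedPoints (Sylow r T)
    rw [Nat.card_of_isEmpty (α := MulAction.fixedPoints (Subgroup.zpowers a) (Sylow r T))] at h1
    exact hl (((Nat.modEq_zero_iff_dvd.mp h1).trans P.card_dvd_index).trans
      (Subgroup.index_dvd_card _))
  obtain ⟨⟨P, hP⟩⟩ := hne
  set D0 : Subgroup T := (P : Subgroup T) ⊓ Subgroup.centralizer ((P : Subgroup T) : Set T)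
  have hconjP : ∀ (g : Subgroup.zpowers a) (x : T), x ∈ (P : Subgroup T) →
      g • x ∈ (P : Subgroup T) := by
    intro g x hx
    have := congrArg (fun Q : Sylow r T => (Q : Subgroup T)) (hP g)
    rw [← this]
    exact Subgroup.smul_mem_pointwise_smul x g _ hx
  refine ⟨D0.map T.subtype, Subgroup.map_subtype_le _, ?_, ?_, ?_⟩
  · rw [Ne, Subgroup.map_eq_bot_iff_of_injective _ T.subtype_injective]
    have hPne : (P : Subgroup T) ≠ ⊥ := P.ne_bot_of_dvd_card hrT
    haveI : Nontrivial (P : Subgroup T) := (Subgroup.nontrivial_iff_ne_bot _).mpr hPne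
    obtain ⟨⟨z, hz⟩, hz1⟩ := Subgroup.ne_bot_iff_exists_ne_one.mp
      ((Subgroup.nontrivial_iff_ne_bot _).mp P.2.center_nontrivial)
    intro h0
    apply hz1
    have hmem : (z : T) ∈ D0 := ⟨z.2, Subgroup.mem_centralizer_iff.mpr fun y hy =>
      congrArg Subtype.val (Subgroup.mem_center_iff.mp hz ⟨y, hy⟩)⟩
    rw [h0, Subgroup.mem_bot] at hmem
    exact Subtype.ext (Subtype.ext hmem)
  · rintro _ ⟨x, hx, rfl⟩ _ ⟨y, hy, rfl⟩
    simp only [← map_mul]
    exact congrArg _ ((Subgroup.mem_centralizer_iff.mp hy.2 x hx.1))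
  · rintro _ ⟨x, hx, rfl⟩
    let g : Subgroup.zpowers a := ⟨a, Subgroup.mem_zpowers a⟩
    refine ⟨g • x, ⟨hconjP g x hx.1, Subgroup.mem_centralizer_iff.mpr fun y hy => ?_⟩, rfl⟩
    obtain ⟨y', hy', rfl⟩ : ∃ y' ∈ (P : Subgroup T), g • y' = y :=
      ⟨g⁻¹ • y, hconjP _ _ hy, smul_inv_smul g y⟩
    rw [← smul_mul', ← smul_mul', Subgroup.mem_centralizer_iff.mp hx.2 y' hy']

end Cfsg.Agent.MaxSub.SingerGroup
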