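import Cfsg.Agent.MaxSub.SingerGroup.Basic
import Cfsg.Agent.MaxSub.SingerGroup.Hall
import Cfsg.Agent.MaxSub.SingerGroup.Galois
import Cfsg.Agent.MaxSub.SingerGroup.Abelian
import Cfsg.Agent.MaxSub.SingerTwoTrans.Main

/-!
An overgroup of a Singer normaliser, acting on an orbit of points, satisfies the hypotheses of
`SingerTwoTrans.exists_degree`.
-/

set_option autoImplicit false
set_option linter.style.haveILetI false
set_option linter.unusedSectionVars false

namespace Cfsg.Agent.MaxSub.SingerGroup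

open Matrix Cfsg.Geo
open scoped LinearAlgebra.Projectivization MatrixGroups

variable {F : Type*} [Field F] [Fintype F] {n : ℕ} [Fact n.Prime]
  {K : Subalgebra F (Matrix (Fin n) (Fin n) F)}

attribute [local instance] Elusive.SingerPrime.neZero

/-- The image of a subgroup of the general linear group in the projective group. -/
abbrev proj (X : Subgroup (GL (Fin n) F)) : Subgroup PGL(Fin n, F) :=
  X.map Matrix.ProjGenLinGroup.mk

theorem card_singerSub (hK : IsFieldSubalgebra n K) :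
    Nat.card (singerSub K) = bigM (Fintype.card F) n := by
  have h := card_det_one hK
  have e : Nat.card {x : K // Matrix.det (x : Matrix (Fin n) (Fin n) F) = 1} =
      Nat.card (singerSub K) := by
    refine Nat.card_congr (Equiv.ofBijective (fun x =>
      (⟨Matrix.GeneralLinearGroup.mkOfDetNeZero (x.1 : Matrix (Fin n) (Fin n) F)
        (by rw [x.2]; exact one_ne_zero), x.1.2, Units.ext x.2⟩ : singerSub K)) ⟨?_, ?_⟩)
    · intro x y hxy
      exact Subtype.ext (Subtype.ext (congrArg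
        (fun z : singerSub K => ((z : GL (Fin n) F) : Matrix (Fin n) (Fin n) F)) hxy))
    · rintro ⟨g, hg, hd⟩
      exact ⟨⟨⟨_, hg⟩, congrArg Units.val hd⟩, Subtype.ext (Units.ext rfl)⟩
  rw [e] at h
  have hq := Fintype.one_lt_card (α := F)
  refine Nat.eq_of_mul_eq_mul_right (show 0 < Fintype.card F - 1 by omega) ?_
  have := bigM_mul (Fintype.card F) n (by omega)
  omega

/-- The image of the Singer group. -/
noncomputable abbrev singerImage (K : Subalgebra F (Matrix (Fin n) (Fin n) F)) :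
    Subgroup PGL(Fin n, F) :=
  proj (singerSub K)

theorem singerSub_le {X : Subgroup (GL (Fin n) F)} (hK : IsFieldSubalgebra n K)
    (hNX : subalgebraNormalizer K ⊓ specialLinear (Fin n) F ≤ X) : singerSub K ≤ X := by
  intro g hg
  refine hNX ⟨MaxSub.mem_normalizer_iff_map_le.mpr fun k hk => ?_, hg.2⟩
  rw [hK.comm _ hg.1 k hk, mul_assoc, ← Units.val_mul, mul_inv_cancel, Units.val_one, mul_one]
  exact hk

theorem card_singerImage (hK : IsFieldSubalgebra n K) {m : ℕ}
    (hm : bigM (Fintype.card F) n = Nat.gcd n (Fintype.card F - 1) * m) :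
    Nat.card (singerImage K) = m := by
  let f : singerSub K →* PGL(Fin n, F) :=
    Matrix.ProjGenLinGroup.mk.comp (singerSub K).subtype
  have hrange : f.range = singerImage K := by
    rw [MonoidHom.range_comp, Subgroup.range_subtype]
  have h1 := Subgroup.card_mul_index f.ker
  rw [Subgroup.index_ker, hrange, card_singerSub hK] at h1
  have h2 : Nat.card f.ker = Nat.gcd n (Fintype.card F - 1) := by
    rw [← card_scalars_sl]
    refine Nat.card_congr
      { toFun := fun x => ⟨(x.1 : GL (Fin n) F), mk_eq_one_iff.mp x.2, x.1.2.2⟩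
        invFun := fun y => ⟨⟨y.1, scalar_mem_K y.2.1, y.2.2⟩, mk_eq_one_iff.mpr y.2.1⟩
        left_inv := fun _ => rfl
        right_inv := fun _ => rfl }
  rw [h2, hm] at h1
  exact Nat.eq_of_mul_eq_mul_left
    (Nat.gcd_pos_of_pos_left _ (Fact.out : n.Prime).pos) h1

/-- In the projective group the Singer image contains the centralisers of its elements. -/
theorem singerImage_cc (hn : Odd n) (hK : IsFieldSubalgebra n K) {x g : GL (Fin n) F}
    (hx : x ∈ singerSub K) (hxs : x ∉ scalars (Fin n) F) (hg : g ∈ specialLinear (Fin n) F)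
    (hgx : Matrix.ProjGenLinGroup.mk g * Matrix.ProjGenLinGroup.mk x =
      Matrix.ProjGenLinGroup.mk x * Matrix.ProjGenLinGroup.mk g) :
    g ∈ singerSub K := by
  set z := g * x * g⁻¹ * x⁻¹ with hz
  have hzs : z ∈ scalars (Fin n) F := by
    rw [← mk_eq_one_iff, hz]
    simp only [map_mul, map_inv, hgx]
    group
  have hzd : z ∈ specialLinear (Fin n) F :=
    mul_mem (mul_mem (mul_mem hg hx.2) (inv_mem hg)) (inv_mem hx.2)
  have hzc : g * x * g⁻¹ = z * x := by rw [hz]; group
  by_cases hz1 : z = 1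
  · refine ⟨mem_K_of_commute hK hx.1 hxs ?_, hg⟩
    rw [hz1, one_mul] at hzc
    exact mul_inv_eq_iff_eq_mul.mp hzc
  exfalso
  have hzn := scalar_pow_eq_one hzs hzd
  have hgn : g * x ^ n = x ^ n * g := by
    have h1 : (g * x * g⁻¹) ^ n = g * x ^ n * g⁻¹ := conj_pow
    rw [hzc, (Commute.mul_pow (scalar_commute hzs x) n), hzn, one_mul] at h1
    exact (mul_inv_eq_iff_eq_mul.mp h1.symm)
  have hxn : x ^ n ∈ scalars (Fin n) F := by
    by_contra hxn
    have hgK := mem_K_of_commute hK (pow_mem hx n : x ^ n ∈ singerSub K).1 hxn hgn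
    apply hz1
    rw [hz, show g * x = x * g from Units.ext (by
      rw [Units.val_mul, Units.val_mul, hK.comm _ hgK _ hx.1])]
    group
  have hxnn : x ^ (n * n) = 1 := by
    rw [pow_mul]
    exact scalar_pow_eq_one hxn (pow_mem hx.2 n)
  have hxM : x ^ bigM (Fintype.card F) n = 1 := by
    rw [← card_singerSub hK]
    have := pow_card_eq_one' (x := (⟨x, hx⟩ : singerSub K))
    exact congrArg Subtype.val this
  have hnq : n ∣ Fintype.card F - 1 := by
    obtain ⟨c, hc⟩ := (mem_scalars_iff z).mp hzs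
    have hcn : c ^ n = 1 := by
      have h0 : (z : Matrix (Fin n) (Fin n) F) ^ n = 1 := by
        rw [← Units.val_pow_eq_pow_val, hzn, Units.val_one]
      rw [hc, smul_pow, one_pow] at h0
      have := congrFun (congrFun h0 0) 0
      rw [Matrix.smul_apply, Matrix.one_apply_eq, smul_eq_mul, mul_one] at this
      exact Units.ext (by rw [Units.val_pow_eq_pow_val]; exact this)
    have hc1 : c ≠ 1 := fun h => hz1 (Units.ext (by rw [hc, h, Units.val_one, one_smul]; rfl))
    rw [← orderOf_eq_prime hcn hc1, ← Nat.card_eq_fintype_card, ← Nat.card_units]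
    exact orderOf_dvd_natCard c
  obtain ⟨m, hm, hmn⟩ := exists_m (Fact.out : n.Prime) hn (Fintype.one_lt_card (α := F))
  rw [Nat.gcd_eq_left hnq] at hm
  have hord : orderOf x ∣ n := by
    have h1 := Nat.dvd_gcd (orderOf_dvd_of_pow_eq_one hxnn) (orderOf_dvd_of_pow_eq_one hxM)
    rwa [hm, Nat.gcd_mul_left, Nat.coprime_comm.mp hmn, mul_one] at h1
  have hxpow : x ^ n = 1 := orderOf_dvd_iff_pow_eq_one.mp hord
  obtain ⟨c, hc⟩ := Elusive.SingerPrime.scalar_of_mem hK hx.1 (by
    rw [← Units.val_pow_eq_pow_val, hxpow, Units.val_one])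
  refine hxs ((mem_scalars_iff x).mpr ⟨Units.mk0 c ?_, hc⟩)
  rintro rfl
  rw [zero_smul] at hc
  exact x.ne_zero hc

/-- The action of a group of projectivities on one orbit gives a configuration. -/
theorem exists_cfg (hn : Odd n) (hK : IsFieldSubalgebra n K) {X : Subgroup (GL (Fin n) F)}
    (hNX : subalgebraNormalizer K ⊓ specialLinear (Fin n) F ≤ X)
    (hXS : X ≤ specialLinear (Fin n) F) (hne : ¬ X ≤ subalgebraNormalizer K) {m : ℕ}
    (hm : bigM (Fintype.card F) n = Nat.gcd n (Fintype.card F - 1) * m) (hmn : m.Coprime n)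
    (hlarge : n * n + 1 < m) (hlarge' : n * (Nat.gcd n (Fintype.card F - 1) + 2) < m)
    (p : ℙ F (Fin n → F)) :
    ∃ k, k ≤ Nat.gcd n (Fintype.card F - 1) ∧
      SingerTwoTrans.Cfg (proj X) (MulAction.orbit (proj X) p) n m k
        ((singerImage K).subgroupOf (proj X)) := by
  classical
  have hn' : n.Prime := Fact.out
  have hq := Fintype.one_lt_card (α := F)
  set G := proj X
  set A := (singerImage K).subgroupOf G
  have hAX : singerSub K ≤ X := singerSub_le hK hNX
  have hAG : singerImage K ≤ G := Subgroup.map_mono hAX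
  haveI : Finite PGL(Fin n, F) := Finite.of_surjective _ Matrix.ProjGenLinGroup.mk_surjective
  haveI : Finite (ℙ F (Fin n → F)) := inferInstance
  have hcardA : Nat.card A = m := by
    rw [Nat.card_congr (Subgroup.subgroupOfEquivOfLe hAG).toEquiv, card_singerImage hK hm]
  have hm2 : 2 ≤ m := by omega
  -- elements
  have hliftA : ∀ a ∈ A, ∃ x ∈ singerSub K, Matrix.ProjGenLinGroup.mk x = (a : PGL(Fin n, F)) :=
    fun a ha => ha
  have hlift : ∀ g : G, ∃ x ∈ X, Matrix.ProjGenLinGroup.mk x = (g : PGL(Fin n, F)) := fun g => g.2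
  have hns : ∀ {a : G} {x : GL (Fin n) F}, a ≠ 1 → Matrix.ProjGenLinGroup.mk x = (a : PGL(Fin n, F)) →
      x ∉ scalars (Fin n) F := fun ha hx hxs => ha (Subtype.ext (hx.symm.trans (mk_eq_one_iff.mpr hxs)))
  have hcomm : ∀ a ∈ A, ∀ b ∈ A, a * b = b * a := by
    intro a ha b hb
    obtain ⟨x, hx, hxa⟩ := hliftA a ha
    obtain ⟨y, hy, hyb⟩ := hliftA b hb
    apply Subtype.ext
    rw [Subgroup.coe_mul, Subgroup.coe_mul, ← hxa, ← hyb, ← map_mul, ← map_mul]
    congr 1
    exact Units.ext (by rw [Units.val_mul, Units.val_mul, hK.comm _ hx.1 _ hy.1])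
  have hcc : ∀ a ∈ A, a ≠ 1 → ∀ g : G, g * a = a * g → g ∈ A := by
    intro a ha ha1 g hga
    obtain ⟨x, hx, hxa⟩ := hliftA a ha
    obtain ⟨y, hy, hyg⟩ := hlift g
    refine ⟨y, singerImage_cc hn hK hx (hns ha1 hxa) (hXS hy) ?_, hyg⟩
    rw [hxa, hyg]
    exact congrArg Subtype.val hga
  haveI : Nontrivial A := Finite.one_lt_card_iff_nontrivial.mp (by omega)
  obtain ⟨⟨a0, ha0⟩, ha0'⟩ := exists_ne (1 : A)
  have ha01 : a0 ≠ 1 := fun h => ha0' (Subtype.ext h)
  obtain ⟨x0, hx0, hxa0⟩ := hliftA a0 ha0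
  have hx0s := hns ha01 hxa0
  have hnormal : ∀ g : G, g ∈ Subgroup.normalizer (A : Set G) → ∀ y ∈ X,
      Matrix.ProjGenLinGroup.mk y = (g : PGL(Fin n, F)) → y ∈ subalgebraNormalizer K := by
    intro g hg y hy hyg
    obtain ⟨x1, hx1, hx1e⟩ := hliftA _ ((Subgroup.mem_normalizer_iff.mp hg a0).mp ha0)
    refine mem_normalizer_of_conj hK hx0.1 hx0s ?_
    have hsc : x1⁻¹ * (y * x0 * y⁻¹) ∈ scalars (Fin n) F := by
      rw [← mk_eq_one_iff]
      simp only [map_mul, map_inv, hyg, hxa0, hx1e, Subgroup.coe_mul, Subgroup.coe_inv]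
      group
    rw [show y * x0 * y⁻¹ = x1 * (x1⁻¹ * (y * x0 * y⁻¹)) by group, Units.val_mul]
    exact K.mul_mem hx1.1 (scalar_mem_K hsc)
  have hnormal' : ∀ y ∈ subalgebraNormalizer K, ∀ hy : y ∈ X,
      (⟨Matrix.ProjGenLinGroup.mk y, Subgroup.mem_map_of_mem _ hy⟩ : G) ∈
        Subgroup.normalizer (A : Set G) := by
    intro y hyN hy
    have key : ∀ z ∈ subalgebraNormalizer K, z ∈ X → ∀ x ∈ singerSub K,
        z * x * z⁻¹ ∈ singerSub K := fun z hzN hz x hx =>
      ⟨by rw [Units.val_mul, Units.val_mul]; exact (hzN _).mp hx.1,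
        mul_mem (mul_mem (hXS hz) hx.2) (inv_mem (hXS hz))⟩
    refine Subgroup.mem_normalizer_iff.mpr fun b => ⟨fun hb => ?_, fun hb => ?_⟩
    · obtain ⟨x, hx, hxb⟩ := hliftA b hb
      exact ⟨_, key y hyN hy x hx, by simp [map_mul, map_inv, hxb]⟩
    · obtain ⟨x, hx, hxb⟩ := hliftA _ hb
      refine ⟨_, key y⁻¹ (inv_mem hyN) (inv_mem hy) x hx, ?_⟩
      simp only [map_mul, map_inv, inv_inv, hxb, Subgroup.coe_mul, Subgroup.coe_inv,
        Subgroup.coe_subtype]
      group
  -- a Galois element fixing a point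
  obtain ⟨v, hv, hvp⟩ : ∃ v, ∃ hv : v ≠ 0, Projectivization.mk F v hv = p :=
    ⟨p.rep, p.rep_nonzero, p.mk_rep⟩
  obtain ⟨σ, hσ, hσv, hσK, hσn, hσgen⟩ := exists_galois hn hK hv
  let s : G := ⟨Matrix.ProjGenLinGroup.mk σ, Subgroup.mem_map_of_mem _ (hNX hσ)⟩
  have hsA : s ∉ A := by
    rintro ⟨x, hx, hxs⟩
    apply hσK
    have hsc : x⁻¹ * σ ∈ scalars (Fin n) F := by
      rw [← mk_eq_one_iff, map_mul, map_inv, hxs, Subgroup.coe_subtype, inv_mul_cancel]
    rw [show σ = x * (x⁻¹ * σ) by group, Units.val_mul]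
    exact K.mul_mem hx.1 (scalar_mem_K hsc)
  have hsN : s ∈ Subgroup.normalizer (A : Set G) := hnormal' σ hσ.1 (hNX hσ)
  have hrel : A.relIndex (Subgroup.normalizer (A : Set G)) = n := by
    set N := Subgroup.normalizer (A : Set G)
    haveI : (A.subgroupOf N).Normal := Subgroup.normal_in_normalizer
    rw [Subgroup.relIndex, Subgroup.index_eq_card]
    let sN : N := ⟨s, hsN⟩
    have htop : Subgroup.zpowers (sN : N ⧸ A.subgroupOf N) = ⊤ := by
      rw [eq_top_iff]
      rintro q -
      obtain ⟨g, rfl⟩ := QuotientGroup.mk_surjective q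
      obtain ⟨y, hy, hyg⟩ := hlift g.1
      have hyN := hnormal g.1 g.2 y hy hyg
      obtain ⟨i, hi⟩ := hσgen y hyN
      refine ⟨(i : ℤ), ?_⟩
      show (sN : N ⧸ A.subgroupOf N) ^ (i : ℤ) = (g : N ⧸ A.subgroupOf N)
      rw [zpow_natCast, ← QuotientGroup.mk_pow, QuotientGroup.eq, Subgroup.mem_subgroupOf]
      have hd : y * (σ ^ i)⁻¹ ∈ singerSub K :=
        ⟨hi, mul_mem (hXS hy) (inv_mem (pow_mem hσ.2 i))⟩
      have hconj : (σ ^ i)⁻¹ * y = (σ ^ i)⁻¹ * (y * (σ ^ i)⁻¹) * σ ^ i := by group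
      refine ⟨(σ ^ i)⁻¹ * y, ?_, by simp [sN, s, ← hyg, map_mul, map_inv, map_pow]⟩
      rw [hconj]
      have hσi : σ ^ i ∈ subalgebraNormalizer K := pow_mem hσ.1 i
      refine ⟨?_, mul_mem (mul_mem (inv_mem (pow_mem hσ.2 i)) hd.2) (pow_mem hσ.2 i)⟩
      have := ((inv_mem hσi) _).mp hd.1
      simpa [Units.val_mul] using this
    rw [← Subgroup.card_top, ← htop, Nat.card_zpowers]
    refine orderOf_eq_prime ?_ ?_
    · rw [← QuotientGroup.mk_pow, QuotientGroup.eq_one_iff, Subgroup.mem_subgroupOf]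
      have : (sN ^ n : N) = 1 := by
        apply Subtype.ext
        apply Subtype.ext
        simp [sN, s, ← map_pow, hσn]
      rw [this]
      exact one_mem A
    · rw [Ne, QuotientGroup.eq_one_iff, Subgroup.mem_subgroupOf]
      exact hsA
  have hfree : ∀ a ∈ A, a ≠ 1 → ∀ w : ℙ F (Fin n → F), a • w ≠ w := by
    intro a ha ha1 w hw
    obtain ⟨x, hx, hxa⟩ := hliftA a ha
    obtain ⟨u, hu, rfl⟩ : ∃ u, ∃ hu : u ≠ 0, Projectivization.mk F u hu = w :=
      ⟨w.rep, w.rep_nonzero, w.mk_rep⟩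
    change (a : PGL(Fin n, F)) • Projectivization.mk F u hu = _ at hw
    rw [← hxa, Projectivization.PGL.mk_smul_mk, Projectivization.mk_eq_mk_iff'] at hw
    obtain ⟨c, hc⟩ := hw
    have hirr := irreducible_of_nonscalar hK hx.1 (hns ha1 hxa) (Submodule.span F {u}) (by
      rw [Submodule.map_span, Set.image_singleton, Submodule.span_le, Set.singleton_subset_iff]
      refine Submodule.mem_span_singleton.mpr ⟨c, hc.trans ?_⟩
      rw [Matrix.toLin'_apply]
      rfl)
    rcases hirr with h | h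
    · exact hu (Submodule.span_singleton_eq_bot.mp h)
    · have h1 := congrArg (fun W : Submodule F (Fin n → F) => Module.finrank F W) h
      simp only [finrank_span_singleton hu, finrank_top, Module.finrank_fin_fun] at h1
      exact hn'.ne_one h1.symm
  -- the orbit
  let Ω := MulAction.orbit G p
  have hdvd : m ∣ Nat.card Ω := by
    have e := MulAction.selfEquivSigmaOrbitsQuotientStabilizer A Ω
    letI := Fintype.ofFinite (MulAction.orbitRel.Quotient A Ω)
    rw [Nat.card_congr e, Nat.card_sigma]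
    refine Finset.dvd_sum fun q _ => ?_
    have hstab : MulAction.stabilizer A (Quotient.out q) = ⊥ := by
      rw [Subgroup.eq_bot_iff_forall]
      intro a ha
      by_contra ha1
      exact hfree a.1 a.2 (fun h => ha1 (Subtype.ext h)) _
        (congrArg Subtype.val (MulAction.mem_stabilizer_iff.mp ha))
    rw [← Subgroup.index_eq_card, hstab, Subgroup.index_bot, hcardA]
  obtain ⟨k, hk⟩ := hdvd
  have hΩle : Nat.card Ω ≤ bigM (Fintype.card F) n := by
    refine (Nat.card_le_card_of_injective (Subtype.val : Ω → ℙ F (Fin n → F))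
      Subtype.val_injective).trans (le_of_eq ?_)
    rw [Projectivization.card_of_finrank F (Fin n → F) (Module.finrank_fin_fun F),
      Nat.card_eq_fintype_card]
    rfl
  have hkc : k ≤ Nat.gcd n (Fintype.card F - 1) := by
    rw [hk, hm, mul_comm m k] at hΩle
    exact Nat.le_of_mul_le_mul_right hΩle (by omega)
  refine ⟨k, hkc,
    { comm := ⟨⟨fun a b => Subtype.ext (hcomm a a.2 b b.2)⟩⟩
      card_A := hcardA
      cc := hcc
      relN := hrel
      e_prime := hn'
      hall := ?_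
      card_Ω := by rw [mul_comm]; exact hk
      free := fun a ha ha1 w h => hfree a ha ha1 w.1 (congrArg Subtype.val h)
      fixes := ⟨s, hsN, hsA, ⟨p, MulAction.mem_orbit_self p⟩, Subtype.ext ?_⟩
      core := ?_
      not_normal := ?_
      large := hlarge
      large' := lt_of_le_of_lt (Nat.mul_le_mul_left _ (by omega)) hlarge' }⟩
  · rw [← hcardA]
    exact coprime_index_of_cc hcomm hcc (by rw [hrel, hcardA]; exact hmn)
  · show Matrix.ProjGenLinGroup.mk σ • p = p
    rw [← hvp, Projectivization.PGL.mk_smul_mk, Projectivization.mk_eq_mk_iff']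
    exact ⟨1, by rw [one_smul]; exact hσv.symm⟩
  · intro T hTn hTA
    haveI := hTn
    by_contra hT
    obtain ⟨l, hl, hlm⟩ := Nat.exists_prime_and_dvd (show m ≠ 1 by omega)
    haveI := Fact.mk hl
    obtain ⟨⟨a, ha⟩, hal⟩ := exists_prime_orderOf_dvd_card' l (by rw [hcardA]; exact hlm)
    have hal' : orderOf a = l := by rw [← hal]; exact (Subgroup.orderOf_mk a ha).symm
    have ha1 : a ≠ 1 := fun h => by
      rw [h, orderOf_one] at hal'; exact hl.ne_one hal'.symm
    have hlT : ¬ l ∣ Nat.card T := by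
      intro hd
      have hcop := coprime_index_of_cc hcomm hcc (by rw [hrel, hcardA]; exact hmn)
      have hdv : Nat.card T ∣ A.index := by
        have h1 : (T.relIndex (A ⊔ T)) = Nat.card A := by
          rw [Subgroup.relIndex_sup_right, ← Subgroup.inf_relIndex_right, hTA,
            Subgroup.relIndex_bot_left]
        have h2 := Subgroup.card_mul_index (T.subgroupOf (A ⊔ T))
        rw [Nat.card_congr (Subgroup.subgroupOfEquivOfLe (le_sup_right : T ≤ A ⊔ T)).toEquiv] at h2
        rw [← Subgroup.relIndex, h1] at h2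
        have h3 := Subgroup.card_subgroup_dvd_card (A ⊔ T)
        rw [← h2, ← A.card_mul_index, mul_comm] at h3
        exact Nat.dvd_of_mul_dvd_mul_left (by omega) h3
      rw [hcardA] at hcop
      exact hl.ne_one (Nat.dvd_one.mp (hcop ▸ Nat.dvd_gcd hlm (hd.trans hdv)))
    obtain ⟨D, hDT, hD0, hDc, hDa⟩ :=
      exists_invariant_comm T hT (orderOf_dvd_iff_pow_eq_one.mp hal'.dvd) hlT
    obtain ⟨x, hx, hxa⟩ := hliftA a ha
    let D' : Subgroup (GL (Fin n) F) :=
      (D.map G.subtype).comap Matrix.ProjGenLinGroup.mk ⊓ specialLinear (Fin n) F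
    have hD' : D' ≤ scalars (Fin n) F := by
      refine abelian_le_scalars hn (a := x) hl
        (prime_dvd_m_large hn' hn hq hm hmn hl hlm) ?_
        (irreducible_of_nonscalar hK hx.1 (hns ha1 hxa)) inf_le_right ?_ ?_ ?_
      · rw [← mk_eq_one_iff, map_pow, hxa, ← SubmonoidClass.coe_pow,
          orderOf_dvd_iff_pow_eq_one.mp hal'.dvd]
        rfl
      · rintro y ⟨⟨d, hd, hyd⟩, -⟩ z ⟨⟨d', hd', hzd⟩, -⟩
        rw [← mk_eq_one_iff]
        simp only [map_mul, map_inv, ← hyd, ← hzd, Subgroup.coe_subtype]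
        rw [← Subgroup.coe_mul, hDc d hd d' hd', Subgroup.coe_mul]
        group
      · rintro y ⟨⟨d, hd, hyd⟩, hy⟩
        refine ⟨⟨a * d * a⁻¹, hDa d hd, ?_⟩, show x * y * x⁻¹ ∈ specialLinear (Fin n) F from
          mul_mem (mul_mem hx.2 hy) (inv_mem hx.2)⟩
        simp [map_mul, map_inv, ← hyd, hxa]
      · rintro y ⟨⟨d, hd, hyd⟩, -⟩ hsc
        rw [← mk_eq_one_iff]
        rw [← mk_eq_one_iff] at hsc
        simp only [map_mul, map_inv, ← hyd, hxa, Subgroup.coe_subtype] at hsc
        have hda : d * a = a * d := by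
          have h0 : a * d * a⁻¹ * d⁻¹ = 1 := Subtype.ext (by simpa using hsc)
          exact (mul_inv_eq_iff_eq_mul.mp (mul_inv_eq_one.mp h0)).symm
        have hdT : d ∈ T ⊓ A := ⟨hDT hd, hcc a ha ha1 d hda⟩
        rw [hTA, Subgroup.mem_bot] at hdT
        rw [← hyd, hdT, map_one]
    apply hD0
    rw [Subgroup.eq_bot_iff_forall]
    intro d hd
    obtain ⟨y, hy, hyd⟩ := hlift d
    have hyD : y ∈ D' := ⟨⟨d, hd, hyd.symm⟩, hXS hy⟩
    exact Subtype.ext (hyd.symm.trans (mk_eq_one_iff.mpr (hD' hyD)))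
  · intro hA
    refine hne fun y hy => ?_
    exact hnormal ⟨Matrix.ProjGenLinGroup.mk y, Subgroup.mem_map_of_mem _ hy⟩
      (by rw [Subgroup.normalizer_eq_top]; exact Subgroup.mem_top _) y hy rfl

end Cfsg.Agent.MaxSub.SingerGroup
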