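import Cfsg.Agent.Elusive.SingerPrime

/-!
Numbers and elementary facts attached to a field subalgebra of prime degree.
-/

set_option autoImplicit false
set_option linter.style.haveILetI false
set_option linter.unusedSectionVars false

namespace Cfsg.Agent.MaxSub.SingerGroup

open Matrix Cfsg.Geo

/-- `1 + q + ... + q^(n-1)`. -/
def bigM (q n : ℕ) : ℕ := ∑ i ∈ Finset.range n, q ^ i

theorem bigM_mul (q n : ℕ) (hq : 1 ≤ q) : bigM q n * (q - 1) + 1 = q ^ n := by
  obtain ⟨t, rfl⟩ : ∃ t, q = t + 1 := ⟨q - 1, by omega⟩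
  rw [Nat.add_sub_cancel]
  exact geom_sum_mul_add t n

theorem bigM_modEq_sub_one (q n : ℕ) (hq : 1 ≤ q) : bigM q n ≡ n [MOD q - 1] := by
  have h1 : q ≡ 1 [MOD q - 1] := ((Nat.modEq_iff_dvd' hq).mpr dvd_rfl).symm
  induction n with
  | zero => rfl
  | succ n ih =>
    rw [bigM, Finset.sum_range_succ]
    have h2 : q ^ n ≡ 1 [MOD q - 1] := by simpa using h1.pow n
    exact ih.add h2

/-- With `c = gcd (n, q - 1)`, the number `(q^n - 1)/((q - 1) c)` is an integer prime to `n`. -/
theorem exists_m {q n : ℕ} (hn : n.Prime) (hodd : Odd n) (hq : 2 ≤ q) :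
    ∃ m, bigM q n = Nat.gcd n (q - 1) * m ∧ m.Coprime n := by
  rcases Nat.coprime_or_dvd_of_prime hn (q - 1) with hc | hc
  · refine ⟨bigM q n, by rw [hc, one_mul], ?_⟩
    rw [Nat.coprime_comm, hn.coprime_iff_not_dvd]
    intro hdvd
    haveI := Fact.mk hn
    have h1 := congrArg (Nat.cast : ℕ → ZMod n) (bigM_mul q n (by omega))
    rw [Nat.cast_add, Nat.cast_mul, (ZMod.natCast_eq_zero_iff _ _).mpr hdvd, zero_mul, zero_add,
      Nat.cast_pow, ZMod.pow_card, Nat.cast_one] at h1
    have h2 : n ∣ q - 1 := by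
      rw [← ZMod.natCast_eq_zero_iff, Nat.cast_sub (by omega), ← h1, Nat.cast_one, sub_self]
    exact hn.ne_one (Nat.dvd_one.mp (hc ▸ Nat.dvd_gcd dvd_rfl h2))
  · obtain ⟨t, ht⟩ := hc
    rw [Nat.gcd_eq_left ⟨t, ht⟩]
    obtain ⟨u, hu⟩ := hodd
    -- modulo `n²`
    have key : ∀ i : ℕ, (q : ZMod (n * n)) ^ i = 1 + (i : ZMod (n * n)) * (n * t) := by
      intro i
      have hq' : (q : ZMod (n * n)) = 1 + (n : ZMod (n * n)) * t := by
        rw [← Nat.cast_mul, ← ht, ← Nat.cast_one, ← Nat.cast_add]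
        congr 1
        omega
      have hnn : (n : ZMod (n * n)) * n = 0 := by rw [← Nat.cast_mul, ZMod.natCast_self]
      induction i with
      | zero => simp
      | succ i ih =>
        rw [pow_succ, ih, hq', Nat.cast_succ]
        linear_combination (i : ZMod (n * n)) * t * t * hnn
    have hsum : (bigM q n : ZMod (n * n)) = n := by
      rw [bigM, Nat.cast_sum]
      simp only [Nat.cast_pow, key, Finset.sum_add_distrib, ← Finset.sum_mul]
      have h2 : ∑ i ∈ Finset.range n, i = n * u := by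
        have := Finset.sum_range_id_mul_two n
        have h3 : n * (n - 1) = n * u * 2 := by
          rw [show n - 1 = 2 * u by omega]; ring
        omega
      rw [← Nat.cast_sum, h2, Nat.cast_mul, Finset.sum_const, Finset.card_range, nsmul_eq_mul, mul_one]
      have hnn : (n : ZMod (n * n)) * n = 0 := by rw [← Nat.cast_mul, ZMod.natCast_self]
      linear_combination (u : ZMod (n * n)) * t * hnn
    obtain ⟨m, hm⟩ : n ∣ bigM q n := by
      have h := ((ZMod.natCast_eq_natCast_iff' (bigM q n) n (n * n)).mp hsum)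
      exact (Nat.dvd_iff_mod_eq_zero.mpr (by
        rw [← Nat.mod_mod_of_dvd (bigM q n) (dvd_mul_right n n), h, Nat.mod_mod_of_dvd n (dvd_mul_right n n),
          Nat.mod_self]))
    refine ⟨m, hm, ?_⟩
    rw [Nat.coprime_comm, hn.coprime_iff_not_dvd]
    rintro ⟨v, rfl⟩
    rw [hm, ← mul_assoc, Nat.cast_mul, ZMod.natCast_self, zero_mul, eq_comm,
      ZMod.natCast_eq_zero_iff] at hsum
    have := Nat.le_of_dvd hn.pos hsum
    have := hn.two_le
    nlinarith

/-- Prime divisors of `m` are large. -/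
theorem prime_dvd_m_large {q n m l : ℕ} (hn : n.Prime) (hodd : Odd n) (hq : 2 ≤ q)
    (hm : bigM q n = Nat.gcd n (q - 1) * m) (hmn : m.Coprime n) (hl : l.Prime) (hlm : l ∣ m) :
    2 * n < l := by
  haveI := Fact.mk hl
  have hlM : l ∣ bigM q n := hm ▸ hlm.mul_left _
  have hpow : (q : ZMod l) ^ n = 1 := by
    have h1 := congrArg (Nat.cast : ℕ → ZMod l) (bigM_mul q n (by omega))
    rw [Nat.cast_add, Nat.cast_mul, (ZMod.natCast_eq_zero_iff _ _).mpr hlM, zero_mul, zero_add,
      Nat.cast_pow, Nat.cast_one] at h1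
    exact h1.symm
  have hne : (q : ZMod l) ≠ 1 := by
    intro h1
    have h2 : l ∣ q - 1 := by
      rw [← ZMod.natCast_eq_zero_iff, Nat.cast_sub (by omega), h1, Nat.cast_one, sub_self]
    have h3 : bigM q n ≡ n [MOD l] := (bigM_modEq_sub_one q n (by omega)).of_dvd h2
    have h4 : l ∣ n := (Nat.ModEq.dvd_iff h3 dvd_rfl).mp hlM
    exact hl.ne_one (Nat.dvd_one.mp (hmn ▸ Nat.dvd_gcd hlm h4))
  have hord : orderOf (q : ZMod l) = n := haveI := Fact.mk hn; orderOf_eq_prime hpow hne
  have h0 : (q : ZMod l) ≠ 0 := fun h => by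
    rw [h, zero_pow hn.ne_zero] at hpow; exact zero_ne_one hpow
  have hdvd : n ∣ l - 1 := hord ▸ orderOf_dvd_of_pow_eq_one (ZMod.pow_card_sub_one_eq_one h0)
  obtain ⟨u, hu⟩ := hdvd
  obtain ⟨v, hv⟩ := hodd
  rcases u with _ | _ | u
  · have := hl.two_le; omega
  · exfalso
    rcases hl.eq_two_or_odd with h | h
    · have := hn.two_le; omega
    · omega
  · have := hl.two_le
    have : n * 2 ≤ n * (u + 1 + 1) := Nat.mul_le_mul_left _ (by omega)
    omega

variable {F : Type*} [Field F] {n : ℕ} {K : Subalgebra F (Matrix (Fin n) (Fin n) F)}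

/-- The elements of `K` of determinant one. -/
def singerSub [Finite F] (K : Subalgebra F (Matrix (Fin n) (Fin n) F)) :
    Subgroup (GL (Fin n) F) where
  carrier := {g | (g : Matrix (Fin n) (Fin n) F) ∈ K ∧ g ∈ specialLinear (Fin n) F}
  mul_mem' {a b} ha hb := ⟨by rw [Units.val_mul]; exact K.mul_mem ha.1 hb.1, mul_mem ha.2 hb.2⟩
  one_mem' := ⟨by rw [Units.val_one]; exact K.one_mem, one_mem _⟩
  inv_mem' {a} ha := ⟨by
    haveI : Finite (GL (Fin n) F) := inferInstance
    have h : a⁻¹ = a ^ (orderOf a - 1) :=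
      inv_eq_of_mul_eq_one_right (by
        rw [← pow_succ', Nat.sub_add_cancel (orderOf_pos a), pow_orderOf_eq_one])
    rw [h, Units.val_pow_eq_pow_val]
    exact K.pow_mem ha.1 _, inv_mem ha.2⟩

variable [Finite F]

theorem mem_singerSub {g : GL (Fin n) F} :
    g ∈ singerSub K ↔ (g : Matrix (Fin n) (Fin n) F) ∈ K ∧ g ∈ specialLinear (Fin n) F := Iff.rfl

theorem scalar_mem_K {g : GL (Fin n) F} (hg : g ∈ scalars (Fin n) F) :
    (g : Matrix (Fin n) (Fin n) F) ∈ K := by
  obtain ⟨c, hc⟩ := (mem_scalars_iff g).mp hg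
  rw [hc]
  exact K.smul_mem K.one_mem _

theorem scalar_commute {g : GL (Fin n) F} (hg : g ∈ scalars (Fin n) F) (x : GL (Fin n) F) :
    g * x = x * g := by
  obtain ⟨c, hc⟩ := (mem_scalars_iff g).mp hg
  apply Units.ext
  rw [Units.val_mul, Units.val_mul, hc, Matrix.smul_mul, Matrix.mul_smul, one_mul, mul_one]

theorem center_eq_scalars : Subgroup.center (GL (Fin n) F) = scalars (Fin n) F := by
  ext g
  constructor
  · intro hg
    obtain ⟨c, rfl⟩ := (Matrix.GeneralLinearGroup.center_eq_range_scalar (n := Fin n) (R := F)).le hg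
    refine (mem_scalars_iff _).mpr ⟨c, ?_⟩
    simp [Matrix.smul_one_eq_diagonal]
  · intro hg
    exact Subgroup.mem_center_iff.mpr fun x => (scalar_commute hg x).symm

theorem mk_eq_one_iff {g : GL (Fin n) F} :
    Matrix.ProjGenLinGroup.mk g = 1 ↔ g ∈ scalars (Fin n) F := by
  rw [Matrix.ProjGenLinGroup.mk_eq_one, center_eq_scalars]

variable [Fact n.Prime] [Fintype F]

attribute [local instance] Elusive.SingerPrime.neZero

/-- A subalgebra of `K` with a non-scalar element is `K`. -/
theorem mem_of_nonscalar (hK : IsFieldSubalgebra n K) (C : Subalgebra F (Matrix (Fin n) (Fin n) F))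
    {a : GL (Fin n) F} (haK : (a : Matrix (Fin n) (Fin n) F) ∈ K)
    (haC : (a : Matrix (Fin n) (Fin n) F) ∈ C) (ha : a ∉ scalars (Fin n) F) : K ≤ C := by
  let _ : Field K := (MaxSub.isField_of_isFieldSubalgebra hK).toField
  haveI : FiniteDimensional F K := Module.Finite.of_finite
  have hprime : (Module.finrank F K).Prime := by rw [hK.finrank_eq]; exact Fact.out
  rcases (Subalgebra.isSimpleOrder_of_finrank_prime F K hprime).eq_bot_or_eq_top (C.comap K.val)
    with h | h
  · exfalso
    apply ha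
    have hmem : (⟨_, haK⟩ : K) ∈ C.comap K.val := haC
    rw [h, Algebra.mem_bot] at hmem
    obtain ⟨c, hc⟩ := hmem
    have hc' : (a : Matrix (Fin n) (Fin n) F) = c • 1 := by
      rw [← Algebra.algebraMap_eq_smul_one]; exact (congrArg Subtype.val hc).symm
    have hc0 : c ≠ 0 := by
      rintro rfl
      rw [zero_smul] at hc'
      exact a.ne_zero hc'
    exact (mem_scalars_iff a).mpr ⟨Units.mk0 c hc0, hc'⟩
  · intro k hk
    have : (⟨k, hk⟩ : K) ∈ C.comap K.val := h ▸ Algebra.mem_top
    exact this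

/-- Non-scalar elements of `K` act irreducibly. -/
theorem irreducible_of_nonscalar (hK : IsFieldSubalgebra n K) {a : GL (Fin n) F}
    (haK : (a : Matrix (Fin n) (Fin n) F) ∈ K) (ha : a ∉ scalars (Fin n) F)
    (W : Submodule F (Fin n → F))
    (hW : W.map (Matrix.toLin' (a : Matrix (Fin n) (Fin n) F)) ≤ W) : W = ⊥ ∨ W = ⊤ := by
  by_cases hW0 : W = ⊥
  · exact Or.inl hW0
  right
  obtain ⟨w, hw, hw0⟩ := Submodule.exists_mem_ne_zero_of_ne_bot hW0
  let C : Subalgebra F (Matrix (Fin n) (Fin n) F) :=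
    { carrier := {x | ∀ v ∈ W, x *ᵥ v ∈ W}
      mul_mem' := fun {x y} hx hy v hv => by rw [← mulVec_mulVec]; exact hx _ (hy v hv)
      add_mem' := fun {x y} hx hy v hv => by rw [add_mulVec]; exact W.add_mem (hx v hv) (hy v hv)
      algebraMap_mem' := fun c v hv => by
        rw [Algebra.algebraMap_eq_smul_one, smul_mulVec, one_mulVec]; exact W.smul_mem c hv }
  have hle := mem_of_nonscalar hK C haK (fun v hv => hW (Submodule.mem_map_of_mem hv)) ha
  refine eq_top_iff.mpr fun v _ => ?_
  obtain ⟨k, rfl⟩ := (Elusive.SingerPrime.orbit_bijective hK hw0).2 v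
  exact hle k.2 w hw

/-- What commutes with a non-scalar element of `K` lies in `K`. -/
theorem mem_K_of_commute (hK : IsFieldSubalgebra n K) {a g : GL (Fin n) F}
    (haK : (a : Matrix (Fin n) (Fin n) F) ∈ K) (ha : a ∉ scalars (Fin n) F)
    (hga : g * a = a * g) : (g : Matrix (Fin n) (Fin n) F) ∈ K := by
  refine Elusive.SingerPrime.mem_of_commute hK fun k hk => ?_
  have := mem_of_nonscalar hK (Subalgebra.centralizer F {(g : Matrix (Fin n) (Fin n) F)}) haK (by
    rw [Subalgebra.mem_centralizer_iff]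
    rintro _ rfl
    exact congrArg Units.val hga) ha hk
  rw [Subalgebra.mem_centralizer_iff] at this
  exact this _ rfl

/-- What conjugates a non-scalar element of `K` into `K` normalises `K`. -/
theorem mem_normalizer_of_conj (hK : IsFieldSubalgebra n K) {a g : GL (Fin n) F}
    (haK : (a : Matrix (Fin n) (Fin n) F) ∈ K) (ha : a ∉ scalars (Fin n) F)
    (hga : ((g * a * g⁻¹ : GL (Fin n) F) : Matrix (Fin n) (Fin n) F) ∈ K) :
    g ∈ subalgebraNormalizer K := by
  refine MaxSub.mem_normalizer_iff_map_le.mpr fun k hk => ?_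
  let C : Subalgebra F (Matrix (Fin n) (Fin n) F) :=
    { carrier := {x | (g : Matrix (Fin n) (Fin n) F) * x * ((g⁻¹ : GL (Fin n) F) : Matrix _ _ F) ∈ K}
      mul_mem' := fun {x y} hx hy => by
        have := K.mul_mem hx hy
        simpa [mul_assoc] using this
      add_mem' := fun {x y} hx hy => by
        have := K.add_mem hx hy
        simpa [mul_add, add_mul] using this
      algebraMap_mem' := fun c => by
        show _ ∈ K
        rw [Algebra.algebraMap_eq_smul_one, Matrix.mul_smul, Matrix.smul_mul, mul_one,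
          Units.mul_inv]
        exact K.smul_mem K.one_mem c }
  exact mem_of_nonscalar hK C haK (show _ ∈ K by simpa [mul_assoc] using hga) ha hk

/-- Scalars of determinant one are `n`th roots of unity. -/
theorem scalar_pow_eq_one {g : GL (Fin n) F} (hg : g ∈ scalars (Fin n) F)
    (hd : g ∈ specialLinear (Fin n) F) : g ^ n = 1 := by
  obtain ⟨c, hc⟩ := (mem_scalars_iff g).mp hg
  apply Units.ext
  rw [Units.val_pow_eq_pow_val, hc, smul_pow, one_pow, Units.val_one]
  have h : (g : Matrix (Fin n) (Fin n) F).det = 1 := congrArg Units.val hd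
  rw [hc, Matrix.det_smul, Matrix.det_one, mul_one, Fintype.card_fin] at h
  rw [h, one_smul]

/-- Scalars of determinant one number `gcd (n, q - 1)`. -/
theorem card_scalars_sl :
    Nat.card ↥(scalars (Fin n) F ⊓ specialLinear (Fin n) F) =
      Nat.gcd n (Fintype.card F - 1) := by
  classical
  have h1 : Nat.card ↥(powMonoidHom n : Fˣ →* Fˣ).ker = Nat.gcd n (Fintype.card F - 1) := by
    rw [IsCyclic.card_powMonoidHom_ker, Nat.card_units, Nat.card_eq_fintype_card, Nat.gcd_comm]
  rw [← h1]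
  refine (Nat.card_congr (Equiv.ofBijective (fun c : (powMonoidHom n : Fˣ →* Fˣ).ker =>
    (⟨Matrix.GeneralLinearGroup.scalar (Fin n) c.1, ?_, ?_⟩ :
      ↥(scalars (Fin n) F ⊓ specialLinear (Fin n) F))) ⟨?_, ?_⟩)).symm
  · exact (mem_scalars_iff _).mpr ⟨c.1, by simp [Matrix.smul_one_eq_diagonal]⟩
  · have := c.2
    rw [MonoidHom.mem_ker, powMonoidHom_apply] at this
    exact Units.ext (by simp [← this])
  · intro c d hcd
    have := congrFun (congrFun (congrArg (fun z : ↥(scalars (Fin n) F ⊓ specialLinear (Fin n) F) =>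
      ((z : GL (Fin n) F) : Matrix (Fin n) (Fin n) F)) hcd) 0) 0
    simp at this
    exact Subtype.ext (Units.ext this)
  · rintro ⟨g, hg, hd⟩
    obtain ⟨c, hc⟩ := (mem_scalars_iff g).mp hg
    refine ⟨⟨c, ?_⟩, Subtype.ext (Units.ext (by simp [hc, Matrix.smul_one_eq_diagonal]))⟩
    rw [MonoidHom.mem_ker, powMonoidHom_apply]
    have h : (g : Matrix (Fin n) (Fin n) F).det = 1 := congrArg Units.val hd
    rw [hc, Matrix.det_smul, Matrix.det_one, mul_one, Fintype.card_fin] at h
    exact Units.ext (by rw [Units.val_pow_eq_pow_val, h, Units.val_one])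

end Cfsg.Agent.MaxSub.SingerGroup
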